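import Mathlib
import Cfsg.Prelude.Def_LieExceptional
import Cfsg.Agent.Frob.Basic

/-!
Basic facts on Zassenhaus groups: two-point stabilisers, orders, the Frobenius group on a point.
-/

set_option autoImplicit false

namespace CfsgLib.ZGrp

open MulAction
open scoped Pointwise

variable {G Ω : Type*} [Group G] [MulAction G Ω]

/-- The stabiliser of two points. -/
abbrev pst (G : Type*) [Group G] {Ω : Type*} [MulAction G Ω] (a b : Ω) : Subgroup G :=
  stabilizer G a ⊓ stabilizer G b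

theorem mem_pst {a b : Ω} {x : G} : x ∈ pst G a b ↔ x • a = a ∧ x • b = b := by
  simp [Subgroup.mem_inf, mem_stabilizer_iff]

variable (hZ : Cfsg.IsZassenhausGroup G Ω)
include hZ

theorem exists_move {c d c' d' : Ω} (h : c ≠ d) (h' : c' ≠ d') : ∃ g : G, g • c = c' ∧ g • d = d' :=
  is_two_pretransitive_iff.1 hZ.2.1 h h'

theorem eq_one_of_three {g : G} {a b c : Ω} (hab : a ≠ b) (hbc : b ≠ c) (hac : a ≠ c)
    (ha : g • a = a) (hb : g • b = b) (hc : g • c = c) : g = 1 :=
  hZ.2.2.1 g a b c hab hbc hac ha hb hc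

theorem eq_or_eq_of_fix {g : G} {a b c : Ω} (hab : a ≠ b) (hg : g ∈ pst G a b) (h1 : g ≠ 1)
    (hc : g • c = c) : c = a ∨ c = b := by
  by_contra h
  push Not at h
  exact h1 (eq_one_of_three hZ hab h.2.symm h.1.symm (mem_pst.1 hg).1 (mem_pst.1 hg).2 hc)

theorem exists_moved {x : G} (h1 : x ≠ 1) : ∃ c : Ω, x • c ≠ c := by
  haveI := hZ.1
  by_contra h
  push Not at h
  exact h1 (FaithfulSMul.eq_of_smul_eq_smul fun c : Ω => by rw [one_smul, h])

/-- Two-point stabilisers are conjugate. -/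
theorem card_pst_eq [Finite G] {a b c d : Ω} (hab : a ≠ b) (hcd : c ≠ d) :
    Nat.card (pst G c d) = Nat.card (pst G a b) := by
  obtain ⟨g, hga, hgb⟩ := exists_move hZ hab hcd
  refine (Nat.card_congr ((MulAut.conj g).toEquiv.subtypeEquiv fun x => ?_)).symm
  show x ∈ pst G a b ↔ g * x * g⁻¹ ∈ pst G c d
  simp only [mem_pst, mul_smul, ← hga, ← hgb, inv_smul_smul, smul_left_cancel_iff]

theorem pst_ne_bot {a b : Ω} (hab : a ≠ b) : pst G a b ≠ ⊥ := by
  obtain ⟨g₀, hg₀, p, q, hpq, hp, hq⟩ := hZ.2.2.2.1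
  obtain ⟨g, hga, hgb⟩ := exists_move hZ hpq hab
  rw [Subgroup.ne_bot_iff_exists_ne_one]
  refine ⟨⟨g * g₀ * g⁻¹, mem_pst.2 ⟨?_, ?_⟩⟩, fun h => hg₀ (conj_eq_one_iff.1 (congrArg Subtype.val h))⟩
  · rw [← hga, mul_smul, mul_smul, inv_smul_smul, hp]
  · rw [← hgb, mul_smul, mul_smul, inv_smul_smul, hq]

theorem one_lt_card_pst [Finite G] {a b : Ω} (hab : a ≠ b) : 1 < Nat.card (pst G a b) :=
  (Subgroup.one_lt_card_iff_ne_bot _).2 (pst_ne_bot hZ hab)

theorem three_le_card_pst [Finite G] {a b : Ω} (hab : a ≠ b) (hodd : Odd (Nat.card (pst G a b))) :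
    3 ≤ Nat.card (pst G a b) := by
  have := one_lt_card_pst hZ hab
  obtain ⟨k, hk⟩ := hodd
  omega

theorem four_le_card [Fintype Ω] {a b : Ω} (hab : a ≠ b) : 4 ≤ Fintype.card Ω := by
  classical
  obtain ⟨⟨x, hx⟩, hx1⟩ := Subgroup.ne_bot_iff_exists_ne_one.1 (pst_ne_bot hZ hab)
  have hx1' : x ≠ 1 := fun h => hx1 (Subtype.ext h)
  obtain ⟨c, hc⟩ := exists_moved hZ hx1'
  obtain ⟨ha, hb⟩ := mem_pst.1 hx
  have hca : c ≠ a := fun h => hc (by rw [h, ha])
  have hcb : c ≠ b := fun h => hc (by rw [h, hb])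
  have h1 : x • c ≠ a := fun h => hca (MulAction.injective x (h.trans ha.symm))
  have h2 : x • c ≠ b := fun h => hcb (MulAction.injective x (h.trans hb.symm))
  have hcard : ({a, b, c, x • c} : Finset Ω).card = 4 := by
    rw [Finset.card_insert_of_notMem (by simp [hab, hca.symm, h1.symm]),
      Finset.card_insert_of_notMem (by simp [hcb.symm, h2.symm]), Finset.card_pair hc.symm]
  exact hcard ▸ Finset.card_le_univ _

omit hZ in
theorem orbit_stab_eq {a b : Ω} (hab : a ≠ b) (htr : ∀ c : Ω, c ≠ a → ∃ g : G, g • a = a ∧ g • b = c) :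
    orbit (stabilizer G a) b = {c : Ω | c ≠ a} := by
  ext c
  constructor
  · rintro ⟨⟨g, hg⟩, rfl⟩
    intro h
    exact hab (MulAction.injective g ((mem_stabilizer_iff.1 hg).trans h.symm))
  · intro hc
    obtain ⟨g, hga, hgb⟩ := htr c hc
    exact ⟨⟨g, mem_stabilizer_iff.2 hga⟩, hgb⟩

theorem card_stab [Finite G] [Fintype Ω] {a b : Ω} (hab : a ≠ b) :
    Nat.card (stabilizer G a) = (Fintype.card Ω - 1) * Nat.card (pst G a b) := by
  classical
  have hidx := MulAction.index_stabilizer (stabilizer G a) b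
  rw [orbit_stab_eq hab (fun c hc => exists_move hZ hab hc.symm)] at hidx
  have hn : ({c : Ω | c ≠ a}).ncard = Fintype.card Ω - 1 := by
    rw [show ({c : Ω | c ≠ a}) = (↑({a}ᶜ : Finset Ω) : Set Ω) by ext; simp, Set.ncard_coe_finset,
      Finset.card_compl, Finset.card_singleton]
  rw [← Subgroup.index_mul_card (stabilizer (stabilizer G a) b), hidx, hn]
  congr 1
  refine Nat.card_congr
    { toFun := fun x => ⟨(x : stabilizer G a), mem_pst.2 ⟨x.1.2, x.2⟩⟩
      invFun := fun x => ⟨⟨x, mem_stabilizer_iff.2 (mem_pst.1 x.2).1⟩, (mem_pst.1 x.2).2⟩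
      left_inv := fun _ => rfl
      right_inv := fun _ => rfl }

theorem card_group [Finite G] [Fintype Ω] {a b : Ω} (hab : a ≠ b) :
    Nat.card G = Fintype.card Ω * ((Fintype.card Ω - 1) * Nat.card (pst G a b)) := by
  classical
  haveI : IsPretransitive G Ω := ⟨fun x y => by
    by_cases h : x = y
    · exact ⟨1, by rw [one_smul, h]⟩
    · obtain ⟨g, h1, -⟩ := exists_move hZ h (Ne.symm h)
      exact ⟨g, h1⟩⟩
  rw [← card_stab hZ hab, ← Subgroup.index_mul_card (stabilizer G a),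
    MulAction.index_stabilizer_of_transitive, Nat.card_eq_fintype_card]

/-- An element conjugating a non-identity element of `G_{a,b}` into it preserves `{a, b}`. -/
theorem pair_of_conj {a b : Ω} (hab : a ≠ b) {g x : G} (hx : x ∈ pst G a b) (h1 : x ≠ 1)
    (hy : g * x * g⁻¹ ∈ pst G a b) :
    (g • a = a ∧ g • b = b) ∨ (g • a = b ∧ g • b = a) := by
  have hy1 : g * x * g⁻¹ ≠ 1 := fun h => h1 (conj_eq_one_iff.1 h)
  have hfix : ∀ c, x • c = c → g • c = a ∨ g • c = b := fun c hc =>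
    eq_or_eq_of_fix hZ hab hy hy1 (by rw [mul_smul, mul_smul, inv_smul_smul, hc])
  have hne : g • a ≠ g • b := fun h => hab (MulAction.injective g h)
  rcases hfix a (mem_pst.1 hx).1 with h | h <;> rcases hfix b (mem_pst.1 hx).2 with h' | h'
  · exact absurd (h.trans h'.symm) hne
  · exact Or.inl ⟨h, h'⟩
  · exact Or.inr ⟨h, h'⟩
  · exact absurd (h.trans h'.symm) hne

omit hZ in
theorem conj_mem_of_swap {a b : Ω} {g x : G} (h1 : g • a = b) (h2 : g • b = a) (hx : x ∈ pst G a b) :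
    g * x * g⁻¹ ∈ pst G a b := by
  have e1 : g⁻¹ • a = b := by rw [inv_smul_eq_iff, h2]
  have e2 : g⁻¹ • b = a := by rw [inv_smul_eq_iff, h1]
  refine mem_pst.2 ⟨?_, ?_⟩
  · rw [mul_smul, mul_smul, e1, (mem_pst.1 hx).2, h2]
  · rw [mul_smul, mul_smul, e2, (mem_pst.1 hx).1, h1]

omit hZ in
theorem sq_mem_of_swap {a b : Ω} {g : G} (h1 : g • a = b) (h2 : g • b = a) : g * g ∈ pst G a b :=
  mem_pst.2 ⟨by rw [mul_smul, h1, h2], by rw [mul_smul, h2, h1]⟩

omit hZ in
theorem mul_mem_of_swap {a b : Ω} {g t : G} (h1 : g • a = b) (h2 : g • b = a) (h3 : t • a = b)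
    (h4 : t • b = a) : t⁻¹ * g ∈ pst G a b :=
  mem_pst.2 ⟨by rw [mul_smul, h1, inv_smul_eq_iff, h3], by rw [mul_smul, h2, inv_smul_eq_iff, h4]⟩

/-- The two-point stabiliser is a Frobenius complement in the point stabiliser. -/
theorem isFrobeniusComplement_pst [Finite G] [Fintype Ω] {a b : Ω} (hab : a ≠ b) :
    Cfsg.IsFrobeniusComplement ((pst G a b).subgroupOf (stabilizer G a)) := by
  refine ⟨?_, ?_, fun g hg => ?_⟩
  · rw [Ne, Subgroup.subgroupOf_eq_bot, disjoint_iff, inf_eq_left.mpr inf_le_left]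
    exact pst_ne_bot hZ hab
  · rw [Ne, Subgroup.subgroupOf_eq_top]
    intro h
    have h4 := four_le_card hZ hab
    obtain ⟨c, hca, hcb⟩ : ∃ c : Ω, c ≠ a ∧ c ≠ b := by
      classical
      obtain ⟨c, hc⟩ : (({a, b} : Finset Ω)ᶜ).Nonempty := by
        rw [← Finset.card_pos, Finset.card_compl, Finset.card_pair hab]
        omega
      rw [Finset.mem_compl] at hc
      exact ⟨c, by simpa using fun h => hc (by simp [h]), fun h => hc (by simp [h])⟩
    obtain ⟨g, hga, hgb⟩ := exists_move hZ hab hca.symm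
    exact hcb (((mem_pst.1 (h (mem_stabilizer_iff.2 hga))).2).symm.trans hgb).symm
  · rw [Subgroup.eq_bot_iff_forall]
    rintro x ⟨hx, hxg⟩
    replace hxg : x ∈ MulAut.conj g • (pst G a b).subgroupOf (stabilizer G a) := hxg
    rw [CfsgLib.Frob.mem_smul_iff] at hxg
    replace hx : x ∈ (pst G a b).subgroupOf (stabilizer G a) := hx
    rw [Subgroup.mem_subgroupOf] at hx hxg hg
    by_contra hx1
    have hx1' : (x : G) ≠ 1 := fun h => hx1 (Subtype.ext h)
    have hga : (g : G) • a = a := g.2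
    have hfix : (x : G) • (g : G) • b = (g : G) • b := by
      have := (mem_pst.1 hxg).2
      simp only [Subgroup.coe_mul, Subgroup.coe_inv, mul_smul] at this
      rw [inv_smul_eq_iff] at this
      exact this
    rcases eq_or_eq_of_fix hZ hab hx hx1' hfix with h | h
    · exact hab (MulAction.injective (g : G) (hga.trans h.symm))
    · exact hg (mem_pst.2 ⟨hga, h⟩)

end CfsgLib.ZGrp
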