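import Mathlib
import Cfsg.Agent.ZGrp.Basic
import Cfsg.Agent.Frob.Structure

/-!
Odd two-point stabilisers without normal `q`-complements are cyclic and inverted by swaps.
-/

set_option autoImplicit false

namespace CfsgLib.ZGrp

open MulAction
open scoped Pointwise

/-- An element whose square centralises a cyclic odd `q`-group it normalises centralises or inverts it. -/
theorem centralize_or_invert {G : Type*} [Group G] [Finite G] {q : ℕ} [Fact q.Prime] (hq2 : q ≠ 2)
    (Q : Subgroup G) [IsCyclic Q] (hQ : IsPGroup q Q) (t : G) (hn : ∀ u ∈ Q, t * u * t⁻¹ ∈ Q)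
    (h2 : ∀ u ∈ Q, Commute (t * t) u) :
    (∀ u ∈ Q, t * u * t⁻¹ = u) ∨ (∀ u ∈ Q, t * u * t⁻¹ = u⁻¹) := by
  classical
  by_contra hc
  push Not at hc
  obtain ⟨⟨u, hu, hu'⟩, ⟨v, hv, hv'⟩⟩ := hc
  letI := IsCyclic.commGroup (α := Q)
  have hcomm : ∀ a ∈ Q, ∀ b ∈ Q, Commute a b := fun a ha b hb =>
    congrArg Subtype.val (mul_comm (⟨a, ha⟩ : Q) ⟨b, hb⟩)
  have hsq : ∀ a ∈ Q, t * (t * a * t⁻¹) * t⁻¹ = a := fun a ha => by
    calc t * (t * a * t⁻¹) * t⁻¹ = (t * t * a) * (t * t)⁻¹ := by group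
      _ = a := by rw [(h2 a ha).eq, mul_inv_cancel_right]
  have hord : ∀ z ∈ Q, z ≠ 1 → ∃ k : ℕ, orderOf (z ^ k) = q := by
    intro z hz hz1
    obtain ⟨n, hn'⟩ := (IsPGroup.iff_orderOf.1 hQ) ⟨z, hz⟩
    rw [Subgroup.orderOf_mk] at hn'
    have hn0 : n ≠ 0 := by
      rintro rfl
      exact hz1 (orderOf_eq_one_iff.1 (by simpa using hn'))
    exact ⟨q ^ (n - 1), by
      rw [orderOf_pow_of_dvd (pow_ne_zero _ (Fact.out : q.Prime).ne_zero) (hn' ▸ pow_dvd_pow q (Nat.sub_le n 1)),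
        hn', Nat.pow_div (Nat.sub_le n 1) (Fact.out : q.Prime).pos, show n - (n - 1) = 1 by omega, pow_one]⟩
  -- a fixed element of order `q`
  set f := v * (t * v * t⁻¹) with hf
  have hfQ : f ∈ Q := Q.mul_mem hv (hn v hv)
  have hf1 : f ≠ 1 := fun h => hv' (eq_inv_of_mul_eq_one_right (hf ▸ h))
  have hff : t * f * t⁻¹ = f := by
    calc t * f * t⁻¹ = (t * v * t⁻¹) * (t * (t * v * t⁻¹) * t⁻¹) := by rw [hf]; group
      _ = (t * v * t⁻¹) * v := by rw [hsq v hv]
      _ = f := (hcomm _ (hn v hv) _ hv).eq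
  -- an inverted element of order `q`
  set i := u * (t * u * t⁻¹)⁻¹ with hi
  have hiQ : i ∈ Q := Q.mul_mem hu (Q.inv_mem (hn u hu))
  have hi1 : i ≠ 1 := fun h => hu' (mul_inv_eq_one.1 (hi ▸ h)).symm
  have hii : t * i * t⁻¹ = i⁻¹ := by
    calc t * i * t⁻¹ = (t * u * t⁻¹) * (t * (t * u * t⁻¹) * t⁻¹)⁻¹ := by rw [hi]; group
      _ = (t * u * t⁻¹) * u⁻¹ := by rw [hsq u hu]
      _ = i⁻¹ := by rw [hi, mul_inv_rev, inv_inv]
  obtain ⟨k, hk⟩ := hord f hfQ hf1
  obtain ⟨l, hl⟩ := hord i hiQ hi1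
  have hfk : t * f ^ k * t⁻¹ = f ^ k := by rw [← conj_pow, hff]
  have hil : t * i ^ l * t⁻¹ = (i ^ l)⁻¹ := by rw [← conj_pow, hii, inv_pow]
  haveI : Fintype Q := Fintype.ofFinite Q
  have hmem : (⟨i ^ l, Q.pow_mem hiQ l⟩ : Q) ∈ Subgroup.zpowers (⟨f ^ k, Q.pow_mem hfQ k⟩ : Q) := by
    have hS : (Finset.univ.filter fun a : Q => a ∈ Subgroup.zpowers (⟨f ^ k, Q.pow_mem hfQ k⟩ : Q)) =
        Finset.univ.filter fun a : Q => a ^ q = 1 := by
      refine Finset.eq_of_subset_of_card_le (fun a ha => ?_) ?_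
      · simp only [Finset.mem_filter, Finset.mem_univ, true_and] at ha ⊢
        have := orderOf_dvd_of_mem_zpowers ha
        rw [(Subgroup.orderOf_mk (f ^ k) (Q.pow_mem hfQ k)).trans hk] at this
        exact orderOf_dvd_iff_pow_eq_one.1 this
      · refine (IsCyclic.card_pow_eq_one_le (Fact.out : q.Prime).pos).trans ?_
        rw [← Fintype.card_subtype, ← Nat.card_eq_fintype_card, Nat.card_zpowers, Subgroup.orderOf_mk, hk]
    have hmem' : (⟨i ^ l, Q.pow_mem hiQ l⟩ : Q) ∈ Finset.univ.filter fun a : Q => a ^ q = 1 := by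
      simp only [Finset.mem_filter, Finset.mem_univ, true_and]
      rw [← orderOf_dvd_iff_pow_eq_one, Subgroup.orderOf_mk, hl]
    rw [← hS] at hmem'
    exact (Finset.mem_filter.1 hmem').2
  obtain ⟨m, hm⟩ := Subgroup.mem_zpowers_iff.1 hmem
  have hm' : (f ^ k) ^ m = i ^ l := congrArg Subtype.val hm
  have hfix : t * i ^ l * t⁻¹ = i ^ l := by rw [← hm', ← conj_zpow, hfk]
  have h22 : (i ^ l) ^ 2 = 1 := by
    rw [pow_two, mul_eq_one_iff_eq_inv]
    exact hfix.symm.trans hil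
  have := orderOf_dvd_of_pow_eq_one h22
  rw [hl, Nat.prime_dvd_prime_iff_eq Fact.out Nat.prime_two] at this
  exact hq2 this

/-- Conjugations on a cyclic subgroup commute. -/
theorem conj_comm_of_cyclic {G : Type*} [Group G] {K : Subgroup G} [IsCyclic K] {x y : G}
    (hx : ∀ k ∈ K, x * k * x⁻¹ ∈ K) (hy : ∀ k ∈ K, y * k * y⁻¹ ∈ K) {k : G} (hk : k ∈ K) :
    x * (y * k * y⁻¹) * x⁻¹ = y * (x * k * x⁻¹) * y⁻¹ := by
  obtain ⟨⟨g, hg⟩, hgen⟩ := IsCyclic.exists_generator (α := K)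
  have key : ∀ z ∈ K, ∃ m : ℤ, g ^ m = z := fun z hz => by
    obtain ⟨m, hm⟩ := Subgroup.mem_zpowers_iff.1 (hgen ⟨z, hz⟩)
    exact ⟨m, congrArg Subtype.val hm⟩
  obtain ⟨a, ha⟩ := key _ (hx g hg)
  obtain ⟨b, hb⟩ := key _ (hy g hg)
  obtain ⟨c, rfl⟩ := key k hk
  rw [← conj_zpow, ← conj_zpow, ← conj_zpow, ← conj_zpow, ← ha, ← hb, ← conj_zpow, ← conj_zpow, ← ha, ← hb,
    ← zpow_mul, ← zpow_mul, ← zpow_mul, ← zpow_mul]
  congr 1
  ring

/-- A subgroup containing all Sylow subgroups is the whole group. -/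
theorem eq_top_of_sylow_le {D : Type*} [Group D] [Finite D] (C : Subgroup D)
    (h : ∀ q : ℕ, q.Prime → q ∣ Nat.card D → ∀ P : Sylow q D, (P : Subgroup D) ≤ C) : C = ⊤ := by
  refine Subgroup.eq_top_of_card_eq C (Nat.dvd_antisymm C.card_subgroup_dvd_card ?_)
  refine (Nat.dvd_iff_prime_pow_dvd_dvd _ _).2 fun q k hq hdvd => ?_
  rcases Nat.eq_zero_or_pos k with rfl | hk
  · simp
  haveI := Fact.mk hq
  let P : Sylow q D := default
  have h1 := P.card_eq_multiplicity
  have hle := h q hq ((dvd_pow_self q hk.ne').trans hdvd) P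
  refine (dvd_trans ?_ (Subgroup.card_dvd_of_le hle))
  rw [h1]
  exact pow_dvd_pow q ((hq.pow_dvd_iff_le_factorization Nat.card_pos.ne').1 hdvd)

/-- A subgroup contains the elements of order prime to its index. -/
theorem mem_of_coprime_index {D : Type*} [Group D] [Finite D] (K : Subgroup D) [K.Normal] {x : D}
    (h : (orderOf x).Coprime K.index) : x ∈ K := by
  obtain ⟨m, hm⟩ := exists_pow_eq_self_of_coprime h.symm
  rw [← hm]
  exact K.pow_mem (K.pow_index_mem x) m

variable {G Ω : Type*} [Group G] [Finite G] [MulAction G Ω] [Fintype Ω]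
variable (hZ : Cfsg.IsZassenhausGroup G Ω) {a b : Ω} (hab : a ≠ b) (hodd : Odd (Nat.card (pst G a b)))
include hZ hab hodd

theorem isZGroup_pst : IsZGroup (pst G a b) := by
  refine ⟨fun q hq P => ?_⟩
  haveI := Fact.mk hq
  have e : (pst G a b).subgroupOf (stabilizer G a) ≃* pst G a b := Subgroup.subgroupOfEquivOfLe inf_le_left
  have hL : CfsgLib.Frob.LatFpf (pst G a b) :=
    (CfsgLib.Frob.latFpf_of_complement (isFrobeniusComplement_pst hZ hab)).comp e.symm.toMonoidHom e.symm.injective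
  rcases hL.sylow_cyclic_or_quaternion P.2 with h | ⟨-, k, -, ⟨e'⟩⟩
  · exact h
  · exfalso
    have h1 := (Subgroup.card_subgroup_dvd_card (P : Subgroup (pst G a b)))
    rw [Nat.card_congr e'.toEquiv, Nat.card_eq_fintype_card, QuaternionGroup.card] at h1
    exact Nat.not_even_iff_odd.2 hodd (even_iff_two_dvd.2 ((Dvd.intro _ (by ring : 2 * (2 * 2 ^ k) = 4 * 2 ^ k)).trans h1))

/-- Sylow subgroups of the two-point stabiliser are Sylow in `G`. -/
theorem exists_sylow_eq {q : ℕ} [Fact q.Prime] (hq : q ∣ Nat.card (pst G a b)) (P : Sylow q (pst G a b)) :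
    ∃ R : Sylow q G, (R : Subgroup G) = (P : Subgroup (pst G a b)).map (pst G a b).subtype := by
  set Q := (P : Subgroup (pst G a b)).map (pst G a b).subtype with hQ
  have hQp : IsPGroup q Q := P.2.map _
  obtain ⟨R, hR⟩ := hQp.exists_le_sylow
  refine ⟨R, le_antisymm ?_ hR⟩
  by_contra hnle
  have hlt : Q.subgroupOf R < ⊤ := lt_top_iff_ne_top.2 fun h => hnle (Subgroup.subgroupOf_eq_top.1 h)
  haveI : Group.IsNilpotent (R : Subgroup G) := R.2.isNilpotent
  have hnc := Group.normalizerCondition_of_isNilpotent (G := (R : Subgroup G)) _ hlt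
  obtain ⟨x, hxN, hxQ⟩ := SetLike.exists_of_lt hnc
  rw [Subgroup.mem_subgroupOf] at hxQ
  have hQne : Q ≠ ⊥ := by
    rw [hQ, Ne, Subgroup.map_eq_bot_iff_of_injective _ (pst G a b).subtype_injective]
    exact P.ne_bot_of_dvd_card hq
  obtain ⟨⟨z, hz⟩, hz1⟩ := Subgroup.ne_bot_iff_exists_ne_one.1 hQne
  have hz1' : z ≠ 1 := fun h => hz1 (Subtype.ext h)
  have hQE : Q ≤ pst G a b := Subgroup.map_subtype_le _
  have hconj : ∀ u ∈ Q, (x : G) * u * (x : G)⁻¹ ∈ Q := by
    intro u hu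
    have hu' : (⟨u, hR hu⟩ : (R : Subgroup G)) ∈ Q.subgroupOf R := Subgroup.mem_subgroupOf.2 hu
    have := (Subgroup.mem_normalizer_iff.1 hxN _).1 hu'
    rw [Subgroup.mem_subgroupOf] at this
    simpa using this
  have hxpair := pair_of_conj hZ hab (hQE hz) hz1' (hQE (hconj z hz))
  have hxE : (x : G) ∈ pst G a b := by
    rcases hxpair with h | h
    · exact mem_pst.2 h
    · exfalso
      obtain ⟨n, hn⟩ := (IsPGroup.iff_orderOf.1 R.2) x
      have hoddx : Odd (orderOf (x : G)) := by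
        rw [Subgroup.orderOf_coe, hn]
        exact (((Nat.Prime.odd_of_ne_two Fact.out) fun e => by
          exact Nat.not_even_iff_odd.2 hodd (even_iff_two_dvd.2 (e ▸ hq))).pow)
      obtain ⟨m, hm⟩ := hoddx
      have hxx := sq_mem_of_swap h.1 h.2
      have : (x : G) ∈ pst G a b := by
        have e : (x : G) = ((x : G) * x) ^ (m + 1) := by
          rw [← pow_two, ← pow_mul, show 2 * (m + 1) = orderOf (x : G) + 1 by omega, pow_succ,
            pow_orderOf_eq_one, one_mul]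
        rw [e]
        exact Subgroup.pow_mem _ hxx _
      exact hab ((mem_pst.1 this).1.symm.trans h.1)
  -- the `q`-subgroup `Q⟨x⟩` of the two-point stabiliser
  set T := (Q ⊔ Subgroup.zpowers (x : G)) with hT
  have hTR : T ≤ R := sup_le hR (Subgroup.zpowers_le.2 x.2)
  have hTE : T ≤ pst G a b := sup_le hQE (Subgroup.zpowers_le.2 hxE)
  have hTp : IsPGroup q (T.subgroupOf (pst G a b)) :=
    (R.2.to_le hTR).of_equiv (Subgroup.subgroupOfEquivOfLe hTE).symm
  have heq := P.3 hTp (fun u hu => Subgroup.mem_subgroupOf.2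
    ((le_sup_left : Q ≤ T) (Subgroup.mem_map_of_mem (pst G a b).subtype hu)))
  apply hxQ
  have : (⟨x, hxE⟩ : pst G a b) ∈ (P : Subgroup (pst G a b)) := by
    rw [← heq, Subgroup.mem_subgroupOf]
    exact (le_sup_right : Subgroup.zpowers (x : G) ≤ T) (Subgroup.mem_zpowers _)
  exact Subgroup.mem_map_of_mem (pst G a b).subtype this

variable (hnil : ∀ q : ℕ, q.Prime → q ∣ Nat.card (pst G a b) →
  ¬ ∃ N : Subgroup G, N.Normal ∧ N.index = q ^ (Nat.card G).factorization q)
include hnil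

/-- If `N_{G_{a,b}}(Q)` centralises the Sylow subgroup `Q`, some swap inverts `Q`. -/
theorem exists_inverter {q : ℕ} [Fact q.Prime] (hq : q ∣ Nat.card (pst G a b)) (P : Sylow q (pst G a b))
    (hc : ∀ g : pst G a b, (∀ u ∈ (P : Subgroup (pst G a b)), g * u * g⁻¹ ∈ (P : Subgroup (pst G a b))) →
      ∀ u ∈ (P : Subgroup (pst G a b)), g * u * g⁻¹ = u) :
    ∃ t : G, t • a = b ∧ t • b = a ∧ ∀ u ∈ (P : Subgroup (pst G a b)), t * (u : G) * t⁻¹ = (u : G)⁻¹ := by
  obtain ⟨R, hR⟩ := exists_sylow_eq hZ hab hodd hq P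
  haveI := isZGroup_pst hZ hab hodd
  have hnle : ¬ Subgroup.normalizer ((R : Subgroup G) : Set G) ≤ Subgroup.centralizer ((R : Subgroup G) : Set G) := by
    intro h
    refine hnil q Fact.out hq ⟨(MonoidHom.transferSylow R h).ker, inferInstance, ?_⟩
    rw [(MonoidHom.ker_transferSylow_isComplement' R h).symm.index_eq_card, R.card_eq_multiplicity]
  obtain ⟨g, hgN, hgC⟩ := SetLike.not_le_iff_exists.1 hnle
  rw [Subgroup.mem_centralizer_iff] at hgC
  push Not at hgC
  obtain ⟨u, hu, hgu⟩ := hgC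
  rw [hR] at hgN
  rw [SetLike.mem_coe, hR] at hu
  obtain ⟨u, huP, rfl⟩ := hu
  have hu1 : u ≠ 1 := by rintro rfl; exact hgu (by simp)
  have hn : ∀ w ∈ (P : Subgroup (pst G a b)),
      g * (w : G) * g⁻¹ ∈ (P : Subgroup (pst G a b)).map (pst G a b).subtype := fun w hw =>
    (Subgroup.mem_normalizer_iff.1 hgN _).1 (Subgroup.mem_map_of_mem (pst G a b).subtype hw)
  have hne : g * (u : G) * g⁻¹ ≠ (u : G) := fun h => hgu (mul_inv_eq_iff_eq_mul.1 h).symm
  rcases pair_of_conj hZ hab u.2 (fun h => hu1 (Subtype.ext h)) (Subgroup.map_subtype_le _ (hn u huP)) with h | h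
  · exfalso
    apply hne
    refine congrArg Subtype.val (hc ⟨g, mem_pst.2 h⟩ (fun w hw => ?_) u huP)
    obtain ⟨w', hw', he⟩ := hn w hw
    exact (show (⟨g, mem_pst.2 h⟩ : pst G a b) * w * ⟨g, mem_pst.2 h⟩⁻¹ = w' from Subtype.ext he.symm) ▸ hw'
  · refine ⟨g, h.1, h.2, ?_⟩
    haveI : IsCyclic (P : Subgroup (pst G a b)) := IsZGroup.isZGroup q Fact.out P
    haveI : IsCyclic ((P : Subgroup (pst G a b)).map (pst G a b).subtype) :=
      isCyclic_of_surjective
        (Subgroup.equivMapOfInjective (P : Subgroup (pst G a b)) _ (pst G a b).subtype_injective).toMonoidHom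
        (Subgroup.equivMapOfInjective (P : Subgroup (pst G a b)) _ (pst G a b).subtype_injective).surjective
    have hq2 : q ≠ 2 := by
      rintro rfl
      exact Nat.not_even_iff_odd.2 hodd (even_iff_two_dvd.2 hq)
    rcases centralize_or_invert hq2 ((P : Subgroup (pst G a b)).map (pst G a b).subtype) (P.2.map _) g
      (fun w hw => by obtain ⟨w, hw', rfl⟩ := hw; exact hn w hw')
      (fun w hw => by
        obtain ⟨w, hw', rfl⟩ := hw
        have h3 : ∀ v ∈ (P : Subgroup (pst G a b)),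
            (⟨g * g, sq_mem_of_swap h.1 h.2⟩ : pst G a b) * v * (⟨g * g, sq_mem_of_swap h.1 h.2⟩ : pst G a b)⁻¹ ∈
              (P : Subgroup (pst G a b)) := fun v hv => by
          obtain ⟨v₁, hv₁, he₁⟩ := hn v hv
          obtain ⟨v₂, hv₂, he₂⟩ := hn v₁ hv₁
          refine Eq.subst (motive := fun z => z ∈ (P : Subgroup (pst G a b))) ?_ hv₂
          apply Subtype.ext
          change (v₂ : G) = g * g * (v : G) * (g * g)⁻¹
          rw [show (v₂ : G) = g * (v₁ : G) * g⁻¹ from he₂, show (v₁ : G) = g * (v : G) * g⁻¹ from he₁]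
          group
        have := congrArg Subtype.val (hc _ h3 w hw')
        exact mul_inv_eq_iff_eq_mul.1 this) with h4 | h4
    · exact absurd (h4 _ (Subgroup.mem_map_of_mem _ huP)) hne
    · exact fun w hw => h4 _ (Subgroup.mem_map_of_mem _ hw)

/-- The two-point stabiliser is abelian. -/
theorem isCyclic_pst : IsCyclic (pst G a b) := by
  haveI := isZGroup_pst hZ hab hodd
  set D := ↥(pst G a b)
  set K : Subgroup D := commutator D
  set K' : Subgroup G := K.map (pst G a b).subtype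
  haveI hKc : IsCyclic K := IsZGroup.isCyclic_commutator D
  haveI : IsCyclic K' := isCyclic_of_surjective
    (Subgroup.equivMapOfInjective K _ (pst G a b).subtype_injective).toMonoidHom
    (Subgroup.equivMapOfInjective K _ (pst G a b).subtype_injective).surjective
  have hcop : (Nat.card K).Coprime K.index := IsZGroup.coprime_commutator_index D
  have hcent : Subgroup.centralizer (K : Set D) = ⊤ := by
    refine eq_top_of_sylow_le _ fun q hq hqd P => ?_
    haveI := Fact.mk hq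
    intro u hu
    by_cases hqK : q ∣ K.index
    swap
    · obtain ⟨n, hn⟩ := (IsPGroup.iff_orderOf.1 P.2) ⟨u, hu⟩
      rw [Subgroup.orderOf_mk] at hn
      have huK : u ∈ K := mem_of_coprime_index K (by
        rw [hn]; exact Nat.Coprime.pow_left _ ((Nat.Prime.coprime_iff_not_dvd hq).2 hqK))
      intro k hk
      letI := IsCyclic.commGroup (α := K)
      exact congrArg Subtype.val (mul_comm (⟨k, hk⟩ : K) ⟨u, huK⟩)
    -- `N(Q)` centralises `Q`
    have hQK : ∀ x ∈ K, x ∈ (P : Subgroup D) → x = 1 := fun x hxK hxP => by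
      have h1 := Subgroup.orderOf_dvd_natCard K hxK
      obtain ⟨n, hn⟩ := (IsPGroup.iff_orderOf.1 P.2) ⟨x, hxP⟩
      rw [Subgroup.orderOf_mk] at hn
      rw [← orderOf_eq_one_iff]
      exact Nat.eq_one_of_dvd_coprimes ((hcop.coprime_dvd_right hqK).pow_right n) h1 (hn ▸ dvd_rfl)
    obtain ⟨t, hta, htb, hinv⟩ := exists_inverter hZ hab hodd hnil hqd P (fun g hg w hw =>
      mul_inv_eq_one.1 (hQK (g * w * g⁻¹ * w⁻¹) (Subgroup.commutator_mem_commutator (Subgroup.mem_top g) (Subgroup.mem_top w))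
        (Subgroup.mul_mem _ (hg w hw) (Subgroup.inv_mem _ hw))))
    have hK' : ∀ (y : G), (∀ z ∈ pst G a b, y * z * y⁻¹ ∈ pst G a b) → ∀ k ∈ K', y * k * y⁻¹ ∈ K' := by
      intro y hy k hk
      have hle : (pst G a b).map (MulAut.conj y).toMonoidHom ≤ pst G a b := by
        rintro z ⟨w, hw, rfl⟩
        exact hy w hw
      have e : K' = ⁅pst G a b, pst G a b⁆ := Subgroup.map_subtype_commutator _
      rw [e] at hk ⊢
      have := Subgroup.mem_map_of_mem (MulAut.conj y).toMonoidHom hk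
      rw [Subgroup.map_commutator] at this
      exact Subgroup.commutator_mono hle hle this
    have hnt : ∀ k ∈ K', t * k * t⁻¹ ∈ K' := hK' t fun z hz => conj_mem_of_swap hta htb hz
    have hnt' : ∀ k ∈ K', t⁻¹ * k * t ∈ K' := fun k hk => by
      have := hK' t⁻¹ (fun z hz => conj_mem_of_swap (by rw [inv_smul_eq_iff, htb]) (by rw [inv_smul_eq_iff, hta]) hz) k hk
      rwa [inv_inv] at this
    have hnu : ∀ k ∈ K', (u : G) * k * (u : G)⁻¹ ∈ K' :=
      hK' _ fun z hz => Subgroup.mul_mem _ (Subgroup.mul_mem _ u.2 hz) (Subgroup.inv_mem _ u.2)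
    have hu2 : ∀ k ∈ K', Commute ((u : G) * u) k := by
      intro k hk
      have h1 : (u : G)⁻¹ * k * u = (u : G) * k * (u : G)⁻¹ := by
        calc (u : G)⁻¹ * k * u = (u : G)⁻¹ * k * ((u : G)⁻¹)⁻¹ := by rw [inv_inv]
          _ = (t * (u : G) * t⁻¹) * k * (t * (u : G) * t⁻¹)⁻¹ := by rw [hinv u hu]
          _ = t * ((u : G) * (t⁻¹ * k * t) * (u : G)⁻¹) * t⁻¹ := by group
          _ = (u : G) * (t * (t⁻¹ * k * t) * t⁻¹) * (u : G)⁻¹ := conj_comm_of_cyclic hnt hnu (hnt' k hk)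
          _ = (u : G) * k * (u : G)⁻¹ := by group
      show (u : G) * u * k = k * ((u : G) * u)
      calc (u : G) * u * k = (u : G) * ((u : G) * k * (u : G)⁻¹) * u := by group
        _ = (u : G) * ((u : G)⁻¹ * k * u) * u := by rw [h1]
        _ = k * ((u : G) * u) := by group
    intro k hk
    apply Subtype.ext
    show (k : G) * u = u * k
    obtain ⟨m, hm⟩ : Odd (orderOf u) := hodd.of_dvd_nat (orderOf_dvd_natCard u)
    have e : (u : G) = ((u : G) * u) ^ (m + 1) := by
      rw [← pow_two, ← pow_mul, show 2 * (m + 1) = orderOf (u : G) + 1 by rw [Subgroup.orderOf_coe]; omega,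
        pow_succ, pow_orderOf_eq_one, one_mul]
    rw [e]
    exact ((hu2 (k : G) (Subgroup.mem_map_of_mem _ hk)).pow_left (m + 1)).eq.symm
  haveI : Group.IsNilpotent D := by
    rw [Subgroup.nilpotent_iff_lowerCentralSeries]
    refine ⟨2, ?_⟩
    have hKC : K ≤ Subgroup.center D := fun k hk => Subgroup.mem_center_iff.2 fun g => by
      have hg : g ∈ Subgroup.centralizer (K : Set D) := hcent ▸ Subgroup.mem_top g
      exact (Subgroup.mem_centralizer_iff.1 hg k hk).symm
    rw [Subgroup.lowerCentralSeries_succ, Subgroup.top_lowerCentralSeries_one, Subgroup.commutator_eq_bot_iff_le_centralizer,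
      Subgroup.coe_top, Subgroup.centralizer_univ]
    exact hKC
  infer_instance

theorem commute_pst {x y : G} (hx : x ∈ pst G a b) (hy : y ∈ pst G a b) : Commute x y := by
  haveI := isCyclic_pst hZ hab hodd hnil
  letI := IsCyclic.commGroup (α := pst G a b)
  exact congrArg Subtype.val (mul_comm (⟨x, hx⟩ : pst G a b) ⟨y, hy⟩)

/-- Every swap inverts the two-point stabiliser. -/
theorem swap_inverts {s : G} (hsa : s • a = b) (hsb : s • b = a) {h : G} (hh : h ∈ pst G a b) :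
    s * h * s⁻¹ = h⁻¹ := by
  let J : Subgroup (pst G a b) :=
    { carrier := {w | s * (w : G) * s⁻¹ = (w : G)⁻¹}
      one_mem' := by simp
      inv_mem' := fun {w} hw => by
        simp only [Set.mem_ofPred_eq, Subgroup.coe_inv, inv_inv] at hw ⊢
        rw [show s * (w : G)⁻¹ * s⁻¹ = (s * (w : G) * s⁻¹)⁻¹ by group, hw, inv_inv]
      mul_mem' := fun {v w} hv hw => by
        simp only [Set.mem_ofPred_eq, Subgroup.coe_mul] at hv hw ⊢
        rw [show s * ((v : G) * w) * s⁻¹ = (s * (v : G) * s⁻¹) * (s * (w : G) * s⁻¹) by group, hv, hw, mul_inv_rev]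
        exact (commute_pst hZ hab hodd hnil v.2 w.2).inv_inv.eq }
  have hJ : J = ⊤ := eq_top_of_sylow_le J fun q hq hqd P u hu => by
    haveI := Fact.mk hq
    obtain ⟨t, hta, htb, hinv⟩ := exists_inverter hZ hab hodd hnil hqd P (fun g _ w _ => Subtype.ext (by
      show (g : G) * w * (g : G)⁻¹ = w
      rw [(commute_pst hZ hab hodd hnil g.2 w.2).eq, mul_inv_cancel_right]))
    show s * (u : G) * s⁻¹ = (u : G)⁻¹
    have hx : t⁻¹ * s ∈ pst G a b := mul_mem_of_swap hsa hsb hta htb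
    calc s * (u : G) * s⁻¹ = t * ((t⁻¹ * s) * u * (t⁻¹ * s)⁻¹) * t⁻¹ := by group
      _ = t * (u : G) * t⁻¹ := by rw [(commute_pst hZ hab hodd hnil hx u.2).eq, mul_inv_cancel_right]
      _ = (u : G)⁻¹ := hinv u hu
  exact (show (⟨h, hh⟩ : pst G a b) ∈ J from hJ ▸ Subgroup.mem_top _)

theorem centralizer_pst : Subgroup.centralizer ((pst G a b : Subgroup G) : Set G) = pst G a b := by
  refine le_antisymm (fun g hg => ?_) (fun x hx y hy => (commute_pst hZ hab hodd hnil hy hx).eq)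
  obtain ⟨⟨x, hx⟩, hx1⟩ := Subgroup.ne_bot_iff_exists_ne_one.1 (pst_ne_bot hZ hab)
  have hx1' : x ≠ 1 := fun h => hx1 (Subtype.ext h)
  have hgx : g * x * g⁻¹ = x := by rw [← Subgroup.mem_centralizer_iff.1 hg x hx, mul_inv_cancel_right]
  rcases pair_of_conj hZ hab hx hx1' (hgx.symm ▸ hx) with h | h
  · exact mem_pst.2 h
  · exfalso
    have h2 : x * x = 1 := by
      have := (swap_inverts hZ hab hodd hnil h.1 h.2 hx).symm.trans hgx
      exact inv_eq_iff_mul_eq_one.1 this
    have hd : orderOf x ∣ 2 := orderOf_dvd_of_pow_eq_one (by rw [pow_two, h2])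
    have ho : Odd (orderOf x) := hodd.of_dvd_nat (Subgroup.orderOf_dvd_natCard _ hx)
    rcases (Nat.dvd_prime Nat.prime_two).1 hd with h3 | h3
    · exact hx1' (orderOf_eq_one_iff.1 h3)
    · rw [h3] at ho; exact absurd ho (by decide)

end CfsgLib.ZGrp
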