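import Mathlib
import Cfsg.Agent.ZGrp.Invert

/-!
Involutions of simple Zassenhaus groups with odd two-point stabilisers.
-/

set_option autoImplicit false

namespace CfsgLib.ZGrp

open MulAction

variable {G Ω : Type*} [Group G] [Finite G] [MulAction G Ω] [Fintype Ω]

theorem no_normal_complement_of_simple [IsSimpleGroup G] (hZ : Cfsg.IsZassenhausGroup G Ω) {a b : Ω}
    (hab : a ≠ b) (q : ℕ) (hq : q.Prime) (hd : q ∣ Nat.card (pst G a b)) :
    ¬ ∃ N : Subgroup G, N.Normal ∧ N.index = q ^ (Nat.card G).factorization q := by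
  rintro ⟨N, hN, hidx⟩
  have hk : 0 < (Nat.card G).factorization q :=
    hq.factorization_pos_of_dvd Nat.card_pos.ne' (hd.trans (Subgroup.card_subgroup_dvd_card _))
  rcases hN.eq_bot_or_eq_top with rfl | rfl
  · rw [Subgroup.index_bot] at hidx
    have hn := four_le_card hZ hab
    have hG := card_group hZ hab
    obtain ⟨i, -, hi⟩ := (Nat.dvd_prime_pow hq).1 (hidx ▸ hG ▸ dvd_mul_right (Fintype.card Ω) _)
    obtain ⟨j, -, hj⟩ := (Nat.dvd_prime_pow hq).1
      (hidx ▸ hG ▸ (dvd_mul_right (Fintype.card Ω - 1) _).trans (dvd_mul_left _ _))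
    have h1 : q ∣ Fintype.card Ω := hi ▸ dvd_pow_self q (by rintro rfl; simp at hi; omega)
    have h2 : q ∣ Fintype.card Ω - 1 := hj ▸ dvd_pow_self q (by rintro rfl; simp at hj; omega)
    have h3 := Nat.dvd_sub h1 h2
    rw [show Fintype.card Ω - (Fintype.card Ω - 1) = 1 by omega] at h3
    exact hq.not_dvd_one h3
  · rw [Subgroup.index_top] at hidx
    exact absurd hidx.symm (one_lt_pow₀ hq.one_lt hk.ne').ne'

variable (hZ : Cfsg.IsZassenhausGroup G Ω) [IsSimpleGroup G] {a b : Ω} (hab : a ≠ b)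
  (hodd : Odd (Nat.card (pst G a b)))
include hZ hab hodd

omit [IsSimpleGroup G] in
theorem odd_card_pst {c d : Ω} (hcd : c ≠ d) : Odd (Nat.card (pst G c d)) :=
  (card_pst_eq hZ hab hcd).symm ▸ hodd

theorem commute_pst_simple {c d : Ω} (hcd : c ≠ d) {x y : G} (hx : x ∈ pst G c d) (hy : y ∈ pst G c d) :
    Commute x y :=
  commute_pst hZ hcd (odd_card_pst hZ hab hodd hcd) (no_normal_complement_of_simple hZ hcd) hx hy

theorem swap_inverts_simple {c d : Ω} (hcd : c ≠ d) {s x : G} (h1 : s • c = d) (h2 : s • d = c)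
    (hx : x ∈ pst G c d) : s * x * s⁻¹ = x⁻¹ :=
  swap_inverts hZ hcd (odd_card_pst hZ hab hodd hcd) (no_normal_complement_of_simple hZ hcd) h1 h2 hx

/-- Every element swapping two points is an involution. -/
theorem orderOf_swap {c d : Ω} (hcd : c ≠ d) {x : G} (h1 : x • c = d) (h2 : x • d = c) : orderOf x = 2 := by
  have hx : x * x ∈ pst G c d := sq_mem_of_swap h1 h2
  have h4 : (x * x) * (x * x) = 1 := by
    have := swap_inverts_simple hZ hab hodd hcd h1 h2 hx
    rw [show x * (x * x) * x⁻¹ = x * x by group] at this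
    exact eq_inv_iff_mul_eq_one.1 this
  have ho : Odd (orderOf (x * x)) := (odd_card_pst hZ hab hodd hcd).of_dvd_nat (Subgroup.orderOf_dvd_natCard _ hx)
  have hd : orderOf (x * x) ∣ 2 := orderOf_dvd_of_pow_eq_one (by rw [pow_two, h4])
  have h22 : x * x = 1 := by
    rcases (Nat.dvd_prime Nat.prime_two).1 hd with h | h
    · exact orderOf_eq_one_iff.1 h
    · rw [h] at ho; exact absurd ho (by decide)
  refine orderOf_eq_prime (by rw [pow_two, h22]) fun h => hcd ?_
  rw [← h1, h, one_smul]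

theorem isConj_swap {x y : G} (hx1 : x • a = b) (hx2 : x • b = a) (hy1 : y • a = b) (hy2 : y • b = a) :
    IsConj x y := by
  have hd : y * x⁻¹ ∈ pst G a b := mem_pst.2
    ⟨by rw [mul_smul, inv_smul_eq_iff.2 hx2.symm, hy2], by rw [mul_smul, inv_smul_eq_iff.2 hx1.symm, hy1]⟩
  obtain ⟨m, hm⟩ : Odd (orderOf (y * x⁻¹)) := hodd.of_dvd_nat (Subgroup.orderOf_dvd_natCard _ hd)
  set c := (y * x⁻¹) ^ (m + 1) with hc
  have hcc : c * c = y * x⁻¹ := by
    rw [hc, ← pow_add, show m + 1 + (m + 1) = orderOf (y * x⁻¹) + 1 by omega, pow_succ, pow_orderOf_eq_one, one_mul]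
  have hinv := swap_inverts_simple hZ hab hodd hab hx1 hx2 (Subgroup.pow_mem _ hd (m + 1))
  refine isConj_iff.2 ⟨c, ?_⟩
  calc c * x * c⁻¹ = c * (x * c⁻¹ * x⁻¹) * x := by group
    _ = c * (x * c * x⁻¹)⁻¹ * x := by group
    _ = c * c * x := by rw [show x * c * x⁻¹ = c⁻¹ from hinv, inv_inv]
    _ = y := by rw [hcc, inv_mul_cancel_right]

/-- All involutions are conjugate. -/
theorem isConj_involution {x y : G} (hx : orderOf x = 2) (hy : orderOf y = 2) : IsConj x y := by
  have key : ∀ z : G, orderOf z = 2 → ∃ w : G, IsConj z w ∧ w • a = b ∧ w • b = a := by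
    intro z hz
    have hz1 : z ≠ 1 := by rintro rfl; simp at hz
    obtain ⟨c, hc⟩ := exists_moved hZ hz1
    obtain ⟨g, h1, h2⟩ := exists_move hZ (Ne.symm hc) hab
    have hzz : z • z • c = c := by rw [smul_smul, ← pow_two, ← hz, pow_orderOf_eq_one, one_smul]
    refine ⟨g * z * g⁻¹, isConj_iff.2 ⟨g, rfl⟩, ?_, ?_⟩
    · rw [← h1, mul_smul, mul_smul, inv_smul_smul, h2]
    · rw [← h2, mul_smul, mul_smul, inv_smul_smul, hzz, h1]
  obtain ⟨u, hu, hu1, hu2⟩ := key x hx
  obtain ⟨v, hv, hv1, hv2⟩ := key y hy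
  exact hu.trans ((isConj_swap hZ hab hodd hu1 hu2 hv1 hv2).trans hv.symm)

omit [IsSimpleGroup G] in
/-- An involution fixes at most one point. -/
theorem eq_of_fixed_involution {x : G} (hx : orderOf x = 2) {c d : Ω} (hc : x • c = c) (hd : x • d = d) :
    c = d := by
  by_contra hcd
  have ho := (odd_card_pst hZ hab hodd hcd).of_dvd_nat (Subgroup.orderOf_dvd_natCard _ (mem_pst.2 ⟨hc, hd⟩))
  rw [hx] at ho
  exact absurd ho (by decide)

omit [IsSimpleGroup G] hab hodd hZ in
theorem fixed_parity {x : G} (hx : orderOf x = 2) :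
    Nat.card (fixedBy Ω x) % 2 = Fintype.card Ω % 2 := by
  haveI : Fact (Nat.Prime 2) := ⟨Nat.prime_two⟩
  have hP : IsPGroup 2 (Subgroup.zpowers x) := IsPGroup.of_card (n := 1) (by rw [Nat.card_zpowers, hx, pow_one])
  have hmod := hP.card_modEq_card_fixedPoints Ω
  have he : MulAction.fixedPoints (Subgroup.zpowers x) Ω = MulAction.fixedBy Ω x := by
    ext y
    constructor
    · intro h
      exact h ⟨x, Subgroup.mem_zpowers x⟩
    · rintro h ⟨_, k, rfl⟩
      exact Subgroup.zpow_mem (stabilizer G y) h k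
  rw [he, Nat.card_eq_fintype_card] at hmod
  exact hmod.symm

omit [IsSimpleGroup G] in
theorem card_fixed_involution {x : G} (hx : orderOf x = 2) :
    Nat.card (fixedBy Ω x) = Fintype.card Ω % 2 := by
  have h1 : Nat.card (fixedBy Ω x) ≤ 1 := Finite.card_le_one_iff_subsingleton.2
    ⟨fun c d => Subtype.ext (eq_of_fixed_involution hZ hab hodd hx c.2 d.2)⟩
  have h2 := fixed_parity (Ω := Ω) hx
  omega

omit [IsSimpleGroup G] in
theorem moved_of_even (hn : Even (Fintype.card Ω)) {x : G} (hx : orderOf x = 2) (c : Ω) : x • c ≠ c := by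
  intro h
  haveI : Nonempty (fixedBy Ω x) := ⟨⟨c, h⟩⟩
  have := card_fixed_involution hZ hab hodd hx
  rw [Nat.even_iff.1 hn] at this
  exact Nat.card_pos.ne' this

omit [IsSimpleGroup G] in
theorem exists_fixed_of_odd (hn : Odd (Fintype.card Ω)) {x : G} (hx : orderOf x = 2) :
    ∃ c : Ω, x • c = c := by
  have := card_fixed_involution hZ hab hodd hx
  rw [Nat.odd_iff.1 hn] at this
  obtain ⟨⟨c, hc⟩⟩ := (Nat.card_eq_one_iff_unique.1 this).2
  exact ⟨c, hc⟩

/-- Involutions taking `c` to `d` correspond to `G_{a,b}`. -/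
theorem card_swaps {c d : Ω} (hcd : c ≠ d) :
    Nat.card {x : G // orderOf x = 2 ∧ x • c = d} = Nat.card (pst G a b) := by
  obtain ⟨t, htc, htd⟩ := exists_move hZ hcd hcd.symm
  rw [← card_pst_eq hZ hab hcd]
  refine (Nat.card_congr ((Equiv.mulLeft t).subtypeEquiv fun x => ?_)).symm
  show x ∈ pst G c d ↔ orderOf (t * x) = 2 ∧ (t * x) • c = d
  constructor
  · intro h
    have h1 : (t * x) • c = d := by rw [mul_smul, (mem_pst.1 h).1, htc]
    have h2 : (t * x) • d = c := by rw [mul_smul, (mem_pst.1 h).2, htd]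
    exact ⟨orderOf_swap hZ hab hodd hcd h1 h2, h1⟩
  · rintro ⟨ho, h1⟩
    have h2 : (t * x) • d = c := by
      rw [← h1, smul_smul, ← pow_two, ← ho, pow_orderOf_eq_one, one_smul]
    refine mem_pst.2 ⟨?_, ?_⟩
    · rw [mul_smul] at h1; exact MulAction.injective t (h1.trans htc.symm)
    · rw [mul_smul] at h2; exact MulAction.injective t (h2.trans htd.symm)

/-- The pair count `I (n - f) = n (n - 1) e`. -/
theorem card_involutions_mul :
    Nat.card {x : G // orderOf x = 2} * (Fintype.card Ω - Fintype.card Ω % 2) =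
      Fintype.card Ω * (Fintype.card Ω - 1) * Nat.card (pst G a b) := by
  classical
  haveI : Fintype G := Fintype.ofFinite G
  set T := Finset.univ.filter fun p : G × Ω => orderOf p.1 = 2 ∧ p.1 • p.2 ≠ p.2
  have h1 : T.card = ∑ x ∈ Finset.univ.filter (fun x : G => orderOf x = 2),
      (Fintype.card Ω - Fintype.card Ω % 2) := by
    rw [Finset.card_eq_sum_card_fiberwise (f := Prod.fst) (t := Finset.univ.filter (fun x : G => orderOf x = 2))
      (fun p hp => by simp [T] at hp ⊢; exact hp.1)]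
    refine Finset.sum_congr rfl fun x hx => ?_
    simp only [Finset.mem_filter, Finset.mem_univ, true_and] at hx
    rw [← card_fixed_involution hZ hab hodd hx, Nat.card_eq_fintype_card, ← Fintype.card_compl_set,
      ← Fintype.card_coe]
    refine Fintype.card_congr
      { toFun := fun p => ⟨p.1.2, ?_⟩
        invFun := fun c => ⟨(x, c.1), ?_⟩
        left_inv := fun p => ?_
        right_inv := fun c => rfl }
    · obtain ⟨p, hp⟩ := p
      simp [T, Set.mem_compl_iff] at hp ⊢
      exact hp.2 ▸ hp.1.2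
    · obtain ⟨c, hc⟩ := c
      simp [T, Set.mem_compl_iff] at hc ⊢
      exact ⟨hx, hc⟩
    · obtain ⟨p, hp⟩ := p
      simp [T] at hp
      exact Subtype.ext (Prod.ext hp.2.symm rfl)
  have h2 : T.card = ∑ q ∈ (Finset.univ : Finset Ω).offDiag, Nat.card (pst G a b) := by
    rw [Finset.card_eq_sum_card_fiberwise (f := fun p : G × Ω => (p.2, p.1 • p.2))
      (t := (Finset.univ : Finset Ω).offDiag) (fun p hp => by simp [T] at hp ⊢; exact fun h => hp.2 h.symm)]
    refine Finset.sum_congr rfl fun q hq => ?_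
    simp at hq
    rw [← card_swaps hZ hab hodd hq, Nat.card_eq_fintype_card, ← Fintype.card_coe]
    refine Fintype.card_congr
      { toFun := fun p => ⟨p.1.1, ?_⟩
        invFun := fun x => ⟨(x.1, q.1), ?_⟩
        left_inv := fun p => ?_
        right_inv := fun c => rfl }
    · obtain ⟨p, hp⟩ := p
      simp [T] at hp ⊢
      exact ⟨hp.1.1, by rw [← hp.2]⟩
    · obtain ⟨x, hx1, hx2⟩ := x
      simp [T, hx1, hx2]
      exact Ne.symm hq
    · obtain ⟨p, hp⟩ := p
      simp [T] at hp
      exact Subtype.ext (Prod.ext rfl (congrArg Prod.fst hp.2.symm))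
  rw [Finset.sum_const, smul_eq_mul] at h1
  rw [Finset.sum_const, smul_eq_mul, Finset.offDiag_card, Finset.card_univ] at h2
  rw [Nat.card_eq_fintype_card, Fintype.card_subtype, ← h1, h2, Nat.mul_sub_one]

theorem card_involutions :
    Nat.card {x : G // orderOf x = 2} =
      if Odd (Fintype.card Ω) then Fintype.card Ω * Nat.card (pst G a b)
      else (Fintype.card Ω - 1) * Nat.card (pst G a b) := by
  have h := card_involutions_mul hZ hab hodd
  have h4 := four_le_card hZ hab
  split_ifs with hn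
  · rw [Nat.odd_iff.1 hn] at h
    refine Nat.eq_of_mul_eq_mul_right (show 0 < Fintype.card Ω - 1 by omega) ?_
    rw [h]; ring
  · rw [Nat.not_odd_iff_even, Nat.even_iff] at hn
    rw [hn, Nat.sub_zero] at h
    refine Nat.eq_of_mul_eq_mul_right (show 0 < Fintype.card Ω by omega) ?_
    rw [h]; ring

end CfsgLib.ZGrp
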