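import Mathlib
import Cfsg.Agent.ZGrp.Invol

/-!
Counting in Zassenhaus groups: fixed points, the point kernel, involutions fixing a point,
centraliser bounds for inverting elements.
-/

set_option autoImplicit false

namespace CfsgLib.ZGrp

open MulAction

variable {G Ω : Type*} [Group G] [Finite G] [MulAction G Ω] [Fintype Ω]

omit [Finite G] [Fintype Ω] in
theorem conj_smul_eq_iff {g x : G} {c : Ω} : (g * x * g⁻¹) • c = c ↔ x • g⁻¹ • c = g⁻¹ • c := by
  rw [mul_smul, mul_smul, eq_inv_smul_iff]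

/-- The elements fixing only `a` form the kernel. -/
theorem mem_kernel (hZ : Cfsg.IsZassenhausGroup G Ω) {a b : Ω} (hab : a ≠ b) (H : Subgroup G)
    (hHa : H ≤ stabilizer G a) (hHcard : Nat.card H + 1 = Fintype.card Ω)
    (hHfix : ∀ u ∈ H, u ≠ 1 → ∀ c : Ω, u • c = c → c = a) {w : G} (hwa : w • a = a)
    (hw : ∀ c : Ω, w • c = c → c = a) : w ∈ H := by
  classical
  have hk : ∀ k : H, (k : G) • a = a := fun k => mem_stabilizer_iff.1 (hHa k.2)
  have hk' : ∀ k : H, (k : G)⁻¹ • a = a := fun k => inv_smul_eq_iff.2 (hk k).symm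
  have hkb : ∀ k : H, (k : G) • b ≠ a := fun k h => hab (MulAction.injective (k : G) ((hk k).trans h.symm))
  have hmem : ∀ (k : H) (d : pst G a b), (if d = 1 then (k : G) else (k : G) * d * (k : G)⁻¹) ∈ stabilizer G a := by
    intro k d
    split_ifs
    · exact hHa k.2
    · rw [mem_stabilizer_iff, mul_smul, mul_smul, hk', (mem_pst.1 d.2).1, hk]
  let f : H × pst G a b → stabilizer G a := fun p => ⟨_, hmem p.1 p.2⟩
  have hne : ∀ (k k' : H) (d : pst G a b), d ≠ 1 → (k : G) ≠ (k' : G) * d * (k' : G)⁻¹ := by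
    intro k k' d hd he
    have hfix : (k : G) • (k' : G) • b = (k' : G) • b := by
      rw [he, mul_smul, mul_smul, inv_smul_smul, (mem_pst.1 d.2).2]
    have hk1 : (k : G) = 1 := by
      by_contra h
      exact hkb k' (hHfix _ k.2 h _ hfix)
    exact hd (Subtype.ext (conj_eq_one_iff.1 (he.symm.trans hk1)))
  have hinj : Function.Injective f := by
    rintro ⟨k, d⟩ ⟨k', d'⟩ he
    have he' : (if d = 1 then (k : G) else (k : G) * d * (k : G)⁻¹) =
        if d' = 1 then (k' : G) else (k' : G) * d' * (k' : G)⁻¹ := congrArg Subtype.val he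
    by_cases hd : d = 1 <;> by_cases hd' : d' = 1
    · subst hd hd'
      rw [if_pos rfl, if_pos rfl] at he'
      exact Prod.ext (Subtype.ext he') rfl
    · rw [if_pos hd, if_neg hd'] at he'
      exact absurd he' (hne k k' d' hd')
    · rw [if_neg hd, if_pos hd'] at he'
      exact absurd he'.symm (hne k' k d hd)
    · rw [if_neg hd, if_neg hd'] at he'
      have hz : ((k' : G)⁻¹ * k) * d * ((k' : G)⁻¹ * k)⁻¹ = d' := by
        calc ((k' : G)⁻¹ * k) * d * ((k' : G)⁻¹ * k)⁻¹ = (k' : G)⁻¹ * ((k : G) * d * (k : G)⁻¹) * k' := by group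
          _ = d' := by rw [he']; group
      have hza : ((k' : G)⁻¹ * k) • a = a := by rw [mul_smul, hk, hk']
      rcases pair_of_conj hZ hab d.2 (fun h => hd (Subtype.ext h)) (hz.symm ▸ d'.2) with h | h
      · have hz1 : (k' : G)⁻¹ * k = 1 := by
          by_contra h1
          exact hab (hHfix _ (H.mul_mem (H.inv_mem k'.2) k.2) h1 _ h.2).symm
        rw [hz1] at hz
        exact Prod.ext (Subtype.ext (inv_mul_eq_one.1 hz1).symm) (Subtype.ext (by simpa using hz))
      · exact absurd (hza.symm.trans h.1) hab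
  have hcard : Nat.card (H × pst G a b) = Nat.card (stabilizer G a) := by
    rw [Nat.card_prod, card_stab hZ hab, ← hHcard, Nat.add_sub_cancel]
  obtain ⟨⟨k, d⟩, hkd⟩ := ((Nat.bijective_iff_injective_and_card f).2 ⟨hinj, hcard⟩).2
    ⟨w, mem_stabilizer_iff.2 hwa⟩
  have hkd' : (if d = 1 then (k : G) else (k : G) * d * (k : G)⁻¹) = w := congrArg Subtype.val hkd
  by_cases hd : d = 1
  · rw [if_pos hd] at hkd'
    exact hkd' ▸ k.2
  · rw [if_neg hd] at hkd'
    refine absurd (hw ((k : G) • b) ?_) (hkb k)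
    rw [← hkd', mul_smul, mul_smul, inv_smul_smul, (mem_pst.1 d.2).2]

omit [Fintype Ω] in
theorem card_fixedBy_le_two (hZ : Cfsg.IsZassenhausGroup G Ω) [Fintype Ω] {g : G} (hg : g ≠ 1) :
    Nat.card (fixedBy Ω g) ≤ 2 := by
  classical
  by_contra hlt
  rw [not_le, Nat.card_eq_fintype_card, Fintype.two_lt_card_iff] at hlt
  obtain ⟨⟨x, hx⟩, ⟨y, hy⟩, ⟨z, hz⟩, hxy, hxz, hyz⟩ := hlt
  exact hg (eq_one_of_three hZ (fun e => hxy (Subtype.ext e)) (fun e => hyz (Subtype.ext e))
    (fun e => hxz (Subtype.ext e)) hx hy hz)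

theorem sum_card_fixedBy [Fintype G] (hZ : Cfsg.IsZassenhausGroup G Ω) {a b : Ω} (hab : a ≠ b) :
    ∑ g : G, Nat.card (fixedBy Ω g) = Nat.card G ∧
      ∑ g : G, Nat.card (fixedBy Ω g) ^ 2 = 2 * Nat.card G := by
  classical
  have hst : ∀ c : Ω, Nat.card (stabilizer G c) = (Fintype.card Ω - 1) * Nat.card (pst G a b) := by
    intro c
    obtain ⟨d, hd⟩ : ∃ d, c ≠ d := by
      by_cases h : c = a
      · exact ⟨b, h ▸ hab⟩
      · exact ⟨a, h⟩
    rw [card_stab hZ hd, card_pst_eq hZ hab hd]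
  have hn := card_group hZ hab
  constructor
  · calc ∑ g : G, Nat.card (fixedBy Ω g) = ∑ c : Ω, Nat.card (stabilizer G c) := by
          simp only [Nat.card_eq_fintype_card, Fintype.card_subtype, mem_stabilizer_iff, mem_fixedBy, Finset.card_filter]
          exact Finset.sum_comm
      _ = Nat.card G := by simp only [hst, Finset.sum_const, Finset.card_univ, smul_eq_mul, hn]
  · calc ∑ g : G, Nat.card (fixedBy Ω g) ^ 2 = ∑ p : Ω × Ω, Nat.card (pst G p.1 p.2) := by
          have e : ∀ g : G, Nat.card (fixedBy Ω g) ^ 2 =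
              (Finset.univ.filter fun p : Ω × Ω => g • p.1 = p.1 ∧ g • p.2 = p.2).card := by
            intro g
            rw [pow_two, ← Nat.card_prod, ← Fintype.card_subtype, ← Nat.card_eq_fintype_card]
            exact Nat.card_congr
              { toFun := fun p => ⟨(p.1.1, p.2.1), p.1.2, p.2.2⟩
                invFun := fun p => (⟨p.1.1, p.2.1⟩, ⟨p.1.2, p.2.2⟩)
                left_inv := fun _ => rfl
                right_inv := fun _ => rfl }
          simp only [e]
          simp only [Nat.card_eq_fintype_card, Fintype.card_subtype, mem_pst, Finset.card_filter]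
          exact Finset.sum_comm
      _ = ∑ p ∈ (Finset.univ : Finset Ω).diag, Nat.card (pst G p.1 p.2) +
            ∑ p ∈ (Finset.univ : Finset Ω).offDiag, Nat.card (pst G p.1 p.2) := by
          rw [← Finset.sum_union (Finset.disjoint_diag_offDiag _), Finset.diag_union_offDiag, Finset.univ_product_univ]
      _ = 2 * Nat.card G := by
          rw [Finset.sum_congr rfl (fun p hp => ?_) (g := fun p => Nat.card (pst G p.1 p.2)) (s₁ := Finset.univ.diag)]
          rotate_left
          · exact rfl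
          rw [Finset.sum_congr rfl (g := fun _ => Nat.card (pst G a b)) (s₁ := Finset.univ.offDiag)
            (fun p hp => card_pst_eq hZ hab (Finset.mem_offDiag.1 hp).2.2),
            Finset.sum_congr rfl (g := fun _ => (Fintype.card Ω - 1) * Nat.card (pst G a b)) (s₁ := Finset.univ.diag)
            (fun p hp => by rw [← (Finset.mem_diag.1 hp).2, pst, inf_idem, hst]),
            Finset.sum_const, Finset.sum_const, smul_eq_mul, smul_eq_mul, Finset.diag_card, Finset.offDiag_card,
            Finset.card_univ, hn, ← Nat.mul_sub_one]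
          ring

/-- The number of fixed-point-free elements. -/
theorem two_mul_card_fpf (hZ : Cfsg.IsZassenhausGroup G Ω) {a b : Ω} (hab : a ≠ b) :
    2 * Nat.card {g : G // ∀ c : Ω, g • c ≠ c} + (Fintype.card Ω - 1) * (Fintype.card Ω - 2) = Nat.card G := by
  classical
  haveI : Fintype G := Fintype.ofFinite G
  obtain ⟨h1, h2⟩ := sum_card_fixedBy hZ hab
  set n := Fintype.card Ω with hn
  have h4 := four_le_card hZ hab
  have key : ∀ g : G, Nat.card (fixedBy Ω g) ^ 2 + 2 = 3 * Nat.card (fixedBy Ω g) +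
      (if g = 1 then (n - 1) * (n - 2) else 0) + 2 * (if ∀ c : Ω, g • c ≠ c then 1 else 0) := by
    intro g
    by_cases hg : g = 1
    · subst hg
      have hf : Nat.card (fixedBy Ω (1 : G)) = n := by
        rw [fixedBy_one_eq_univ, Nat.card_eq_fintype_card]
        simp [hn]
      have hno : ¬ ∀ c : Ω, (1 : G) • c ≠ c := fun h => h a (one_smul _ _)
      rw [hf, if_pos rfl, if_neg hno]
      obtain ⟨m, hm⟩ : ∃ m, n = m + 2 := ⟨n - 2, by omega⟩
      rw [hm, Nat.add_sub_cancel, show m + 2 - 1 = m + 1 from rfl]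
      ring
    · rw [if_neg hg]
      have hle := card_fixedBy_le_two hZ hg
      by_cases h0 : ∀ c : Ω, g • c ≠ c
      · haveI : IsEmpty (fixedBy Ω g) := ⟨fun c => h0 c.1 c.2⟩
        rw [if_pos h0, Nat.card_of_isEmpty]
        norm_num
      · rw [if_neg h0]
        push Not at h0
        obtain ⟨c, hc⟩ := h0
        haveI : Nonempty (fixedBy Ω g) := ⟨⟨c, hc⟩⟩
        have := Nat.card_pos (α := fixedBy Ω g)
        rcases (by omega : Nat.card (fixedBy Ω g) = 1 ∨ Nat.card (fixedBy Ω g) = 2) with h | h <;> rw [h] <;> norm_num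
  have hs := Finset.sum_congr rfl fun g (_ : g ∈ (Finset.univ : Finset G)) => key g
  rw [Finset.sum_add_distrib, Finset.sum_add_distrib, Finset.sum_add_distrib, ← Finset.mul_sum, ← Finset.mul_sum,
    h1, h2, Finset.sum_const, Finset.card_univ, Finset.sum_ite_eq' Finset.univ (1 : G), if_pos (Finset.mem_univ _),
    ← Finset.card_filter, ← Fintype.card_subtype, ← Nat.card_eq_fintype_card, ← Nat.card_eq_fintype_card,
    smul_eq_mul] at hs
  omega

/-- The class size times the order of the centraliser. -/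
theorem card_conjugates_mul (g : G) :
    Nat.card {x : G // IsConj g x} * Nat.card (Subgroup.centralizer ({g} : Set G)) = Nat.card G := by
  have h := Nat.card_congr (orbitProdStabilizerEquivGroup (ConjAct G) g)
  rw [Nat.card_prod] at h
  rw [show Nat.card G = Nat.card (ConjAct G) from rfl, ← h]
  congr 1
  · refine Nat.card_congr (Equiv.subtypeEquivRight fun x => ?_)
    rw [ConjAct.mem_orbit_conjAct, isConj_comm]
  · refine Nat.card_congr
      { toFun := fun x => ⟨ConjAct.toConjAct (x : G), ?_⟩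
        invFun := fun x => ⟨ConjAct.ofConjAct (x : ConjAct G), ?_⟩
        left_inv := fun _ => rfl
        right_inv := fun _ => rfl }
    · obtain ⟨x, hx⟩ := x
      rw [Subgroup.mem_centralizer_singleton_iff] at hx
      rw [mem_stabilizer_iff, ConjAct.toConjAct_smul, hx, mul_inv_cancel_right]
    · obtain ⟨x, hx⟩ := x
      rw [mem_stabilizer_iff, ConjAct.smul_def, mul_inv_eq_iff_eq_mul] at hx
      rwa [Subgroup.mem_centralizer_singleton_iff]

/-- At most `|C(g)|` involutions `x` give a factorisation of `g` into two involutions. -/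
theorem card_inverters_le (g : G) :
    Nat.card {p : G × G // orderOf p.1 = 2 ∧ orderOf p.2 = 2 ∧ p.1 * p.2 = g} ≤
      Nat.card (Subgroup.centralizer ({g} : Set G)) := by
  rcases isEmpty_or_nonempty {p : G × G // orderOf p.1 = 2 ∧ orderOf p.2 = 2 ∧ p.1 * p.2 = g} with h | ⟨⟨p₀, hp₀⟩⟩
  · simp
  have hinv : ∀ p : G × G, orderOf p.1 = 2 ∧ orderOf p.2 = 2 ∧ p.1 * p.2 = g → p.1 * g * p.1⁻¹ = g⁻¹ := by
    rintro ⟨x, y⟩ ⟨hx, hy, rfl⟩
    have hx' : x⁻¹ = x := inv_eq_of_mul_eq_one_right (by rw [← pow_two, ← hx, pow_orderOf_eq_one])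
    have hy' : y⁻¹ = y := inv_eq_of_mul_eq_one_right (by rw [← pow_two, ← hy, pow_orderOf_eq_one])
    have hxx : x * x = 1 := by rw [← pow_two, ← hx, pow_orderOf_eq_one]
    dsimp only
    rw [mul_inv_rev, hx', hy', ← mul_assoc x x y, hxx, one_mul]
  refine Nat.card_le_card_of_injective (fun p => ⟨p₀.1⁻¹ * p.1.1, ?_⟩) ?_
  · rw [Subgroup.mem_centralizer_singleton_iff]
    calc p₀.1⁻¹ * p.1.1 * g = p₀.1⁻¹ * (p.1.1 * g * p.1.1⁻¹) * p.1.1 := by group
      _ = p₀.1⁻¹ * (p₀.1 * g * p₀.1⁻¹) * p.1.1 := by rw [hinv _ p.2, hinv _ hp₀]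
      _ = g * (p₀.1⁻¹ * p.1.1) := by group
  · rintro ⟨⟨x, y⟩, hxy⟩ ⟨⟨x', y'⟩, hxy'⟩ he
    have hx : x = x' := mul_left_cancel (congrArg Subtype.val he)
    subst hx
    have : y = y' := mul_left_cancel (hxy.2.2.trans hxy'.2.2.symm)
    subst this
    rfl

/-- Odd degree: `e` involutions fix each point. -/
theorem card_involutions_fixing (hZ : Cfsg.IsZassenhausGroup G Ω) [IsSimpleGroup G] {a b : Ω} (hab : a ≠ b)
    (hodd : Odd (Nat.card (pst G a b))) (hn : Odd (Fintype.card Ω)) (c : Ω) :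
    Nat.card {x : G // orderOf x = 2 ∧ x • c = c} = Nat.card (pst G a b) := by
  classical
  have heq : ∀ d : Ω, Nat.card {x : G // orderOf x = 2 ∧ x • d = d} = Nat.card {x : G // orderOf x = 2 ∧ x • c = c} := by
    intro d
    obtain ⟨g, hg⟩ : ∃ g : G, g • c = d := by
      by_cases h : c = d
      · exact ⟨1, by rw [one_smul, h]⟩
      · obtain ⟨g, h1, -⟩ := exists_move hZ h (Ne.symm h)
        exact ⟨g, h1⟩
    refine (Nat.card_congr ((MulAut.conj g).toEquiv.subtypeEquiv fun x => ?_)).symm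
    show orderOf x = 2 ∧ x • c = c ↔ orderOf (g * x * g⁻¹) = 2 ∧ (g * x * g⁻¹) • d = d
    rw [← MulAut.conj_apply, MulEquiv.orderOf_eq, MulAut.conj_apply, conj_smul_eq_iff, ← hg, inv_smul_smul]
  have e : Nat.card {x : G // orderOf x = 2} = Nat.card (Σ d : Ω, {x : G // orderOf x = 2 ∧ x • d = d}) := by
    refine (Nat.card_congr (Equiv.ofBijective (fun p => (⟨p.2.1, p.2.2.1⟩ : {x : G // orderOf x = 2})) ⟨?_, ?_⟩)).symm
    · rintro ⟨d, x, hx, hxd⟩ ⟨d', x', hx', hxd'⟩ he
      have he' : x = x' := congrArg Subtype.val he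
      subst he'
      have := eq_of_fixed_involution hZ hab hodd hx hxd hxd'
      subst this
      rfl
    · rintro ⟨x, hx⟩
      obtain ⟨d, hd⟩ := exists_fixed_of_odd hZ hab hodd hn hx
      exact ⟨⟨d, x, hx, hd⟩, rfl⟩
  rw [card_involutions hZ hab hodd, if_pos hn, Nat.card_sigma, Finset.sum_congr rfl (fun d _ => heq d),
    Finset.sum_const, smul_eq_mul, Finset.card_univ] at e
  exact (Nat.eq_of_mul_eq_mul_left (by have := four_le_card hZ hab; omega) e).symm

end CfsgLib.ZGrp
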