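import Mathlib
import Cfsg.Agent.ZGrp.Counts
import Cfsg.Agent.S0339

/-!
Zassenhaus groups of odd degree are simple.
-/

set_option autoImplicit false

namespace CfsgLib.ZGrp

open MulAction
open scoped Pointwise

variable {G Ω : Type*} [Group G] [Finite G] [MulAction G Ω] [Fintype Ω]
variable (hZ : Cfsg.IsZassenhausGroup G Ω) (hn : Odd (Fintype.card Ω))
include hZ hn

theorem fixed_unique_of_odd {t : G} (ht : orderOf t = 2) :
    ∃ c : Ω, t • c = c ∧ ∀ d : Ω, t • d = d → d = c := by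
  have h1 := fixed_parity (Ω := Ω) ht
  have h2 := card_fixedBy_le_two hZ (g := t) (by rintro rfl; simp at ht)
  rw [Nat.odd_iff.1 hn] at h1
  obtain ⟨hs, ⟨⟨c, hc⟩⟩⟩ := Nat.card_eq_one_iff_unique.1 (show Nat.card (fixedBy Ω t) = 1 by omega)
  exact ⟨c, hc, fun d hd => congrArg Subtype.val (hs.elim (⟨d, hd⟩ : fixedBy Ω t) ⟨c, hc⟩)⟩

theorem odd_pst_of_odd_degree {a b : Ω} (hab : a ≠ b) : Odd (Nat.card (pst G a b)) := by
  haveI : Fact (Nat.Prime 2) := ⟨Nat.prime_two⟩
  rw [← Nat.not_even_iff_odd, even_iff_two_dvd]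
  intro h
  obtain ⟨t, ht⟩ := exists_prime_orderOf_dvd_card' (G := pst G a b) 2 h
  rw [← Subgroup.orderOf_coe] at ht
  obtain ⟨c, -, hc⟩ := fixed_unique_of_odd hZ hn ht
  exact hab ((hc a (mem_pst.1 t.2).1).trans (hc b (mem_pst.1 t.2).2).symm)

/-- No swap centralises a non-identity element of the two-point stabiliser. -/
theorem not_commute_swap {a b : Ω} (hab : a ≠ b) {t u : G} (hta : t • a = b) (htb : t • b = a)
    (hu : u ∈ pst G a b) (hu1 : u ≠ 1) : ¬ Commute t u := by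
  intro hc
  obtain ⟨m, hm⟩ : Odd (orderOf (t * t)) :=
    (odd_pst_of_odd_degree hZ hn hab).of_dvd_nat (Subgroup.orderOf_dvd_natCard _ (sq_mem_of_swap hta htb))
  set s := t ^ (orderOf (t * t)) with hs
  have hs2 : s * s = 1 := by rw [hs, ← (Commute.refl t).mul_pow, pow_orderOf_eq_one]
  have hsa : s • a = b := by
    rw [hs, hm, pow_succ', mul_smul, pow_mul, pow_two]
    have h1 : (t * t) ^ m • a = a := (mem_pst.1 (Subgroup.pow_mem _ (sq_mem_of_swap hta htb) m)).1
    rw [h1, hta]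
  have hs1 : orderOf s = 2 := orderOf_eq_prime (by rw [pow_two, hs2]) fun h => hab (by rw [← hsa, h, one_smul])
  obtain ⟨c, hc1, hc2⟩ := fixed_unique_of_odd hZ hn hs1
  have hsu : Commute s u := hc.pow_left _
  have hcu : u • c = c := hc2 _ (by rw [smul_smul, hsu.eq, mul_smul, hc1])
  rcases eq_or_eq_of_fix hZ hab hu hu1 hcu with rfl | rfl
  · exact hab (hc1.symm.trans hsa)
  · exact hab (MulAction.injective s (hsa.trans hc1.symm))

/-- A non-trivial normal subgroup is the whole group. -/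
theorem normal_eq_top {a b : Ω} (hab : a ≠ b) (N : Subgroup G) [N.Normal] (hN : N ≠ ⊥) : N = ⊤ := by
  classical
  have hodd := odd_pst_of_odd_degree hZ hn hab
  haveI := isZGroup_pst hZ hab hodd
  haveI : IsMultiplyPretransitive N Ω 2 := Cfsg.Agent.S0339.two_transitive hZ hN
  have hNE : ∀ g : G, ∃ m ∈ N, ∃ x ∈ pst G a b, g = m * x := by
    intro g
    obtain ⟨m, h1, h2⟩ := is_two_pretransitive_iff.1 ‹IsMultiplyPretransitive N Ω 2› hab
      (show g • a ≠ g • b from fun h => hab (MulAction.injective g h))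
    exact ⟨m, m.2, (m : G)⁻¹ * g, mem_pst.2 ⟨by rw [mul_smul, inv_smul_eq_iff]; exact h1.symm,
      by rw [mul_smul, inv_smul_eq_iff]; exact h2.symm⟩, by group⟩
  rw [eq_top_iff]
  intro g _
  obtain ⟨m, hm, x, hx, rfl⟩ := hNE g
  refine N.mul_mem hm ?_
  suffices hall : N.subgroupOf (pst G a b) = ⊤ by
    exact Subgroup.mem_subgroupOf.1 (show (⟨x, hx⟩ : pst G a b) ∈ N.subgroupOf (pst G a b) from hall ▸ Subgroup.mem_top _)
  by_contra hK
  set K := N.subgroupOf (pst G a b) with hKdef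
  haveI hKn : K.Normal := by rw [hKdef]; infer_instance
  set L := K ⊔ commutator (pst G a b) with hL
  have hLtop : L ≠ ⊤ := by
    intro h
    haveI : Nontrivial (pst G a b ⧸ K) := QuotientGroup.nontrivial_iff.2 hK
    refine (Group.IsSolvable.commutator_lt_top_of_nontrivial (pst G a b ⧸ K)).ne ?_
    rw [commutator_def, ← Subgroup.map_top_of_surjective (QuotientGroup.mk' K) (QuotientGroup.mk'_surjective K),
      ← Subgroup.map_commutator, ← commutator_def, Subgroup.map_top_of_surjective _ (QuotientGroup.mk'_surjective K),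
      eq_top_iff, ← Subgroup.map_top_of_surjective (QuotientGroup.mk' K) (QuotientGroup.mk'_surjective K), ← h, hL,
      Subgroup.map_sup, QuotientGroup.map_mk'_self, bot_sup_eq]
  obtain ⟨q, hq, hqL⟩ := Nat.exists_prime_and_dvd (fun h => hLtop (Subgroup.index_eq_one.1 h))
  haveI := Fact.mk hq
  have hqi : q ∣ (commutator (pst G a b)).index := hqL.trans (Subgroup.index_dvd_of_le le_sup_right)
  have hqE : q ∣ Nat.card (pst G a b) := hqL.trans (Subgroup.index_dvd_card L)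
  let P : Sylow q (pst G a b) := default
  have hQK : ∀ y ∈ commutator (pst G a b), y ∈ (P : Subgroup (pst G a b)) → y = 1 := fun y hyK hyP => by
    have h1 := Subgroup.orderOf_dvd_natCard _ hyK
    obtain ⟨n, hn'⟩ := (IsPGroup.iff_orderOf.1 P.2) ⟨y, hyP⟩
    rw [Subgroup.orderOf_mk] at hn'
    rw [← orderOf_eq_one_iff]
    exact Nat.eq_one_of_dvd_coprimes (((IsZGroup.coprime_commutator_index _).coprime_dvd_right hqi).pow_right n) h1
      (hn' ▸ dvd_rfl)
  obtain ⟨u, huP, huL⟩ : ∃ u ∈ (P : Subgroup (pst G a b)), u ∉ L := by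
    by_contra hc
    push Not at hc
    have h1 : (P : Subgroup (pst G a b)).index = (P : Subgroup (pst G a b)).relIndex L * L.index :=
      (Subgroup.relIndex_mul_index hc).symm
    exact P.not_dvd_index (h1 ▸ hqL.mul_left _)
  obtain ⟨s, hsa, hsb⟩ := exists_move hZ hab hab.symm
  have hs1 : s⁻¹ • a = b := by rw [inv_smul_eq_iff, hsb]
  have hs2 : s⁻¹ • b = a := by rw [inv_smul_eq_iff, hsa]
  let φ : MulAut (pst G a b) :=
    { toFun := fun v => ⟨s * v * s⁻¹, conj_mem_of_swap hsa hsb v.2⟩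
      invFun := fun v => ⟨s⁻¹ * v * s⁻¹⁻¹, conj_mem_of_swap hs1 hs2 v.2⟩
      left_inv := fun v => Subtype.ext (by simp; group)
      right_inv := fun v => Subtype.ext (by simp; group)
      map_mul' := fun v w => Subtype.ext (by simp [mul_assoc]) }
  obtain ⟨k, hk⟩ := exists_smul_eq (pst G a b) (φ • P) P
  have hkP : ∀ v ∈ (P : Subgroup (pst G a b)), k * φ v * k⁻¹ ∈ (P : Subgroup (pst G a b)) := by
    intro v hv
    have h1 : φ v ∈ ((φ • P : Sylow q (pst G a b)) : Subgroup (pst G a b)) :=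
      Subgroup.smul_mem_pointwise_smul v φ _ hv
    have h2 := Subgroup.smul_mem_pointwise_smul (φ v) (MulAut.conj k) _ h1
    rw [← hk]
    exact h2
  set t := (k : G) * s with ht
  have hta : t • a = b := by rw [ht, mul_smul, hsa, (mem_pst.1 k.2).2]
  have htb : t • b = a := by rw [ht, mul_smul, hsb, (mem_pst.1 k.2).1]
  set Q := (P : Subgroup (pst G a b)).map (pst G a b).subtype
  haveI : IsCyclic (P : Subgroup (pst G a b)) := IsZGroup.isZGroup q hq P
  haveI : IsCyclic Q := isCyclic_of_surjective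
    (Subgroup.equivMapOfInjective (P : Subgroup (pst G a b)) _ (pst G a b).subtype_injective).toMonoidHom
    (Subgroup.equivMapOfInjective (P : Subgroup (pst G a b)) _ (pst G a b).subtype_injective).surjective
  have hq2 : q ≠ 2 := by
    rintro rfl
    exact Nat.not_even_iff_odd.2 hodd (even_iff_two_dvd.2 hqE)
  have htQ : ∀ v ∈ Q, t * v * t⁻¹ ∈ Q := by
    rintro v ⟨v, hv, rfl⟩
    refine ⟨_, hkP v hv, ?_⟩
    show (k : G) * (s * v * s⁻¹) * (k : G)⁻¹ = t * v * t⁻¹
    rw [ht]; group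
  have hu1 : (u : G) ≠ 1 := fun h => huL (by rw [show u = 1 from Subtype.ext h]; exact L.one_mem)
  have huQ : (u : G) ∈ Q := Subgroup.mem_map_of_mem (pst G a b).subtype huP
  have htt : ∀ v ∈ Q, Commute (t * t) v := by
    rintro v ⟨v, hv, rfl⟩
    let g : pst G a b := ⟨t * t, sq_mem_of_swap hta htb⟩
    have h2 : g * v * g⁻¹ ∈ (P : Subgroup (pst G a b)) := by
      obtain ⟨w, hw, he⟩ := htQ _ (htQ _ (Subgroup.mem_map_of_mem (pst G a b).subtype hv))
      refine Eq.subst (motive := fun z => z ∈ (P : Subgroup (pst G a b))) ?_ hw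
      apply Subtype.ext
      refine he.trans ?_
      show t * (t * v * t⁻¹) * t⁻¹ = t * t * v * (t * t)⁻¹
      group
    have h3 := hQK (g * v * g⁻¹ * v⁻¹) (Subgroup.commutator_mem_commutator (Subgroup.mem_top g) (Subgroup.mem_top v))
      (Subgroup.mul_mem _ h2 (Subgroup.inv_mem _ hv))
    exact mul_inv_eq_iff_eq_mul.1 (congrArg Subtype.val (mul_inv_eq_one.1 h3))
  rcases centralize_or_invert hq2 Q (P.2.map _) t htQ htt with h | h
  · exact not_commute_swap hZ hn hab hta htb u.2 hu1 (mul_inv_eq_iff_eq_mul.1 (h _ huQ))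
  have hinv := h _ huQ
  obtain ⟨m₁, hm₁, x₁, hx₁, hte⟩ := hNE t
  set w : pst G a b := ⟨x₁, hx₁⟩ * u * ⟨x₁, hx₁⟩⁻¹ with hw
  have hmN : m₁ * (w : G) * m₁⁻¹ * (w : G)⁻¹ ∈ N := by
    rw [show m₁ * (w : G) * m₁⁻¹ * (w : G)⁻¹ = m₁ * ((w : G) * m₁⁻¹ * (w : G)⁻¹) by group]
    exact N.mul_mem hm₁ ((inferInstance : N.Normal).conj_mem _ (N.inv_mem hm₁) _)
  have hval : m₁ * (w : G) * m₁⁻¹ = (u : G)⁻¹ := by
    rw [← hinv, hte, hw]
    simp only [Subgroup.coe_mul, Subgroup.coe_inv]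
    group
  rw [hval] at hmN
  have hk1 : u⁻¹ * w⁻¹ ∈ K := Subgroup.mem_subgroupOf.2 hmN
  have hk2 : w * u⁻¹ ∈ commutator (pst G a b) :=
    Subgroup.commutator_mem_commutator (Subgroup.mem_top (⟨x₁, hx₁⟩ : pst G a b)) (Subgroup.mem_top u)
  have hu2 : u⁻¹ * u⁻¹ ∈ L := by
    have := L.mul_mem ((le_sup_left : K ≤ L) hk1) ((le_sup_right : commutator (pst G a b) ≤ L) hk2)
    rwa [mul_assoc, inv_mul_cancel_left] at this
  obtain ⟨j, hj⟩ : Odd (orderOf u) := hodd.of_dvd_nat (orderOf_dvd_natCard u)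
  apply huL
  have e : u = ((u⁻¹ * u⁻¹) ^ (j + 1))⁻¹ := by
    rw [← pow_two, ← pow_mul, inv_pow, inv_inv, show 2 * (j + 1) = orderOf u + 1 by omega, pow_succ,
      pow_orderOf_eq_one, one_mul]
  rw [e]
  exact L.inv_mem (L.pow_mem hu2 _)

end CfsgLib.ZGrp
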