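import Mathlib
import Cfsg.Agent.ZGrp.Basic

/-!
A regular normal subgroup of the point stabiliser with large two-point stabiliser is elementary abelian.
-/

set_option autoImplicit false

namespace CfsgLib.ZGrp

open MulAction
open scoped Pointwise

/-- A non-trivial subgroup invariant under twists of a fixed-point-free group of at least half the
non-identity elements is the whole group. -/
theorem eq_top_of_invariant {F D : Type*} [Group F] [Finite F] [Group D] [Finite D] (φ : D →* MulAut F)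
    (hfpf : ∀ (d : D) (k u : F), k * φ d u * k⁻¹ = u → d = 1 ∨ u = 1) (hd : Nat.card F ≤ 2 * Nat.card D + 1)
    (K : Subgroup F) (hK : K ≠ ⊥) (t : D → F) (hinv : ∀ d, ∀ u ∈ K, t d * φ d u * (t d)⁻¹ ∈ K) : K = ⊤ := by
  classical
  haveI : Fintype D := Fintype.ofFinite D
  obtain ⟨⟨u, hu⟩, hu1⟩ := Subgroup.ne_bot_iff_exists_ne_one.1 hK
  have hu1' : u ≠ 1 := fun h => hu1 (Subtype.ext h)
  let f : Option D → K := fun o => o.elim 1 fun d => ⟨t d * φ d u * (t d)⁻¹, hinv d u hu⟩
  have hne : ∀ d, t d * φ d u * (t d)⁻¹ ≠ 1 := fun d h =>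
    hu1' ((φ d).injective ((conj_eq_one_iff.1 h).trans (map_one (φ d)).symm))
  have hf : Function.Injective f := by
    rintro (_ | d) (_ | e) h
    · rfl
    · exact absurd (congrArg Subtype.val h).symm (hne e)
    · exact absurd (congrArg Subtype.val h) (hne d)
    · have h' : t d * φ d u * (t d)⁻¹ = t e * φ e u * (t e)⁻¹ := congrArg Subtype.val h
      have h2 : (φ e).symm ((t e)⁻¹ * t d) * φ (e⁻¹ * d) u * ((φ e).symm ((t e)⁻¹ * t d))⁻¹ = u := by
        apply (φ e).injective
        rw [map_mul, map_mul, map_inv, MulEquiv.apply_symm_apply, map_mul φ, map_inv φ, MulAut.mul_apply,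
          MulAut.apply_inv_self]
        calc (t e)⁻¹ * t d * φ d u * ((t e)⁻¹ * t d)⁻¹ = (t e)⁻¹ * (t d * φ d u * (t d)⁻¹) * t e := by group
          _ = φ e u := by rw [h']; group
      exact congrArg some (inv_mul_eq_one.1 ((hfpf _ _ _ h2).resolve_right hu1')).symm
  have hcard := Nat.card_le_card_of_injective f hf
  rw [Nat.card_eq_fintype_card (α := Option D), Fintype.card_option, ← Nat.card_eq_fintype_card] at hcard
  rw [← Subgroup.index_eq_one]
  have h1 := K.index_mul_card
  have h0 : K.index ≠ 0 := Subgroup.index_ne_zero_of_finite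
  by_contra h
  have : 2 * Nat.card K ≤ K.index * Nat.card K := Nat.mul_le_mul_right _ (by omega)
  omega

/-- Such a group is elementary abelian. -/
theorem elementary_of_invariant {F D : Type*} [Group F] [Finite F] [Nontrivial F] [Group D] [Finite D]
    (φ : D →* MulAut F) (hfpf : ∀ (d : D) (k u : F), k * φ d u * k⁻¹ = u → d = 1 ∨ u = 1)
    (hd : Nat.card F ≤ 2 * Nat.card D + 1) :
    (∀ u v : F, u * v = v * u) ∧ ∃ p f : ℕ, p.Prime ∧ (∀ u : F, u ^ p = 1) ∧ Nat.card F = p ^ f := by
  classical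
  have key := eq_top_of_invariant φ hfpf hd
  set p := (Nat.card F).minFac with hp
  have hpp : p.Prime := Nat.minFac_prime (Finite.one_lt_card (α := F)).ne'
  haveI := Fact.mk hpp
  obtain ⟨x, hx⟩ := exists_prime_orderOf_dvd_card' (G := F) p (Nat.minFac_dvd _)
  let P : Sylow p F := default
  have hk : ∀ d, ∃ k : F, ∀ u ∈ (P : Subgroup F), k * φ d u * k⁻¹ ∈ (P : Subgroup F) := by
    intro d
    obtain ⟨k, hk⟩ := exists_smul_eq F (φ d • P) P
    refine ⟨k, fun u hu => ?_⟩
    have h1 : φ d u ∈ ((φ d • P : Sylow p F) : Subgroup F) := Subgroup.smul_mem_pointwise_smul u (φ d) _ hu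
    have h2 := Subgroup.smul_mem_pointwise_smul (φ d u) (MulAut.conj k) _ h1
    rw [← hk]
    exact h2
  choose t ht using hk
  have hPtop : (P : Subgroup F) = ⊤ := key _ (P.ne_bot_of_dvd_card (Nat.minFac_dvd _)) t ht
  have hPF : IsPGroup p F := fun u => by
    obtain ⟨n, hn⟩ := P.2 ⟨u, hPtop ▸ Subgroup.mem_top u⟩
    exact ⟨n, congrArg Subtype.val hn⟩
  haveI := hPF.center_nontrivial
  have hZ : Subgroup.center F = ⊤ := key _ ((Subgroup.nontrivial_iff_ne_bot _).1 inferInstance) (fun _ => 1)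
    (fun d u hu => Subgroup.mem_center_iff.2 fun g => by
      rw [one_mul, inv_one, mul_one]
      have := congrArg (φ d) (Subgroup.mem_center_iff.1 hu ((φ d).symm g))
      simpa using this)
  have hab : ∀ u v : F, u * v = v * u := fun u v =>
    (Subgroup.mem_center_iff.1 (hZ.symm ▸ Subgroup.mem_top u) v).symm
  refine ⟨hab, ?_⟩
  let Ω₁ : Subgroup F :=
    { carrier := {u | u ^ p = 1}
      one_mem' := one_pow p
      inv_mem' := fun {u} hu => by simp only [Set.mem_ofPred_eq, inv_pow, inv_eq_one] at hu ⊢; exact hu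
      mul_mem' := fun {u v} hu hv => by
        simp only [Set.mem_ofPred_eq] at hu hv ⊢
        rw [Commute.mul_pow (hab u v), hu, hv, one_mul] }
  have hΩ : Ω₁ = ⊤ := key Ω₁ (fun h => by
      have hxm : x ∈ Ω₁ := by show x ^ p = 1; rw [← hx, pow_orderOf_eq_one]
      rw [h, Subgroup.mem_bot] at hxm
      rw [hxm, orderOf_one] at hx
      exact hpp.one_lt.ne hx) (fun _ => 1) (fun d u hu => by
      show (1 * φ d u * 1⁻¹) ^ p = 1
      rw [one_mul, inv_one, mul_one, ← map_pow, show u ^ p = 1 from hu, map_one])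
  obtain ⟨f, hf⟩ := hPF.exists_card_eq
  exact ⟨p, f, hpp, fun u => (show u ∈ Ω₁ from hΩ ▸ Subgroup.mem_top u), hf⟩

end CfsgLib.ZGrp
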