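import Mathlib
import Cfsg.Agent.ZGrp.Counts
import Cfsg.Agent.S0878

/-!
Strongly real elements of the point kernel; the involutions fixing a point commute.
-/

set_option autoImplicit false

namespace CfsgLib.ZGrp

open MulAction
open scoped Pointwise

variable {G Ω : Type*} [Group G] [Finite G] [MulAction G Ω] [Fintype Ω]
variable (hZ : Cfsg.IsZassenhausGroup G Ω) [IsSimpleGroup G] {a b : Ω} (hab : a ≠ b)
  (hodd : Odd (Nat.card (pst G a b))) (H : Subgroup G)
  (hHa : H ≤ stabilizer G a) (hHcard : Nat.card H + 1 = Fintype.card Ω)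
  (hHfix : ∀ u ∈ H, u ≠ 1 → ∀ c : Ω, u • c = c → c = a)
include hZ hab hodd hHa hHcard hHfix

/-- Involutions fixing the same point commute. -/
theorem commute_involutions_fixing (hn : Odd (Fintype.card Ω)) {x y : G} (hx : orderOf x = 2) (hy : orderOf y = 2)
    (hxa : x • a = a) (hya : y • a = a) : Commute x y := by
  classical
  haveI : Fact (Nat.Prime 2) := ⟨Nat.prime_two⟩
  have hnorm := (Cfsg.Agent.S0878.result hZ a H hHa hHcard hHfix).2
  let S : Sylow 2 H := default
  set S' : Subgroup G := (S : Subgroup H).map H.subtype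
  have h2H : 2 ∣ Nat.card H := by
    obtain ⟨k, hk⟩ := hn
    exact ⟨k, by omega⟩
  haveI : Nontrivial (S : Subgroup H) := (Subgroup.nontrivial_iff_ne_bot _).2 (S.ne_bot_of_dvd_card h2H)
  haveI := S.2.center_nontrivial
  obtain ⟨z, hz⟩ := exists_prime_orderOf_dvd_card' (G := Subgroup.center (S : Subgroup H)) 2
    ((S.2.to_subgroup (Subgroup.center (S : Subgroup H))).exists_card_eq.elim fun k hk => by
      have h1 := Finite.one_lt_card (α := Subgroup.center (S : Subgroup H))
      rw [hk] at h1 ⊢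
      exact dvd_pow_self 2 (by rintro rfl; simp at h1))
  set z' : G := (((z : (S : Subgroup H)) : H) : G)
  have hz2 : orderOf z' = 2 := by
    rw [Subgroup.orderOf_coe, Subgroup.orderOf_coe, Subgroup.orderOf_coe, hz]
  have hzS : z' ∈ S' := ⟨_, ((z : (S : Subgroup H))).2, rfl⟩
  have hzc : ∀ v ∈ S', Commute z' v := by
    rintro v ⟨v, hv, rfl⟩
    exact (congrArg (fun w : (S : Subgroup H) => ((w : H) : G)) (Subgroup.mem_center_iff.1 z.2 ⟨v, hv⟩)).symm
  have hS'H : S' ≤ H := Subgroup.map_subtype_le _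
  have hza : z' • a = a := mem_stabilizer_iff.1 (hHa (hS'H hzS))
  have hN : ∀ g : G, g • a = a → ∀ v ∈ H, g * v * g⁻¹ ∈ H := fun g hg v hv =>
    (Subgroup.mem_normalizer_iff.1 (hnorm.symm ▸ mem_stabilizer_iff.2 hg) v).1 hv
  have hfr : ∀ d : pst G a b, ∃ k : H, ∀ v ∈ S', ((k : G) * d) * v * ((k : G) * d)⁻¹ ∈ S' := by
    intro d
    let φ : MulAut H :=
      { toFun := fun v => ⟨(d : G) * v * (d : G)⁻¹, hN _ (mem_pst.1 d.2).1 _ v.2⟩
        invFun := fun v => ⟨(d : G)⁻¹ * v * (d : G)⁻¹⁻¹, hN _ (inv_smul_eq_iff.2 (mem_pst.1 d.2).1.symm) _ v.2⟩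
        left_inv := fun v => Subtype.ext (by simp; group)
        right_inv := fun v => Subtype.ext (by simp; group)
        map_mul' := fun v w => Subtype.ext (by simp [mul_assoc]) }
    obtain ⟨k, hk⟩ := exists_smul_eq H (φ • S) S
    refine ⟨k, ?_⟩
    rintro v ⟨v, hv, rfl⟩
    refine ⟨k * φ v * k⁻¹, ?_, ?_⟩
    · show k * φ v * k⁻¹ ∈ (S : Subgroup H)
      have h1 : φ v ∈ ((φ • S : Sylow 2 H) : Subgroup H) := Subgroup.smul_mem_pointwise_smul v φ _ hv
      have h2 := Subgroup.smul_mem_pointwise_smul (φ v) (MulAut.conj k) _ h1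
      rw [← hk]
      exact h2
    · show (k : G) * ((d : G) * v * (d : G)⁻¹) * (k : G)⁻¹ = (k : G) * d * v * ((k : G) * d)⁻¹
      group
  choose k hk using hfr
  have hna : ∀ d : pst G a b, ((k d : G) * d) • a = a := fun d => by
    rw [mul_smul, (mem_pst.1 d.2).1, mem_stabilizer_iff.1 (hHa (k d).2)]
  let f : pst G a b → {t : G // orderOf t = 2 ∧ t • a = a} := fun d =>
    ⟨((k d : G) * d) * z' * ((k d : G) * d)⁻¹,
      by rw [← MulAut.conj_apply, MulEquiv.orderOf_eq, hz2],
      conj_smul_eq_iff.2 (by rw [inv_smul_eq_iff.2 (hna d).symm, hza])⟩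
  have hfc : ∀ d, ∀ v ∈ S', Commute ((f d : G)) v := by
    intro d v hv
    set m := (k d : G) * d
    have hv' : m⁻¹ * v * m ∈ S' := by
      have hle : S'.map (MulAut.conj m).toMonoidHom ≤ S' := by
        rintro w ⟨u, hu, rfl⟩
        exact hk d u hu
      have heq := Subgroup.eq_of_le_of_card_ge hle (Subgroup.card_map_of_injective (MulAut.conj m).injective).ge
      obtain ⟨u, hu, he⟩ := heq.ge hv
      rw [← he]
      simpa [mul_assoc] using hu
    show m * z' * m⁻¹ * v = v * (m * z' * m⁻¹)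
    calc m * z' * m⁻¹ * v = m * (z' * (m⁻¹ * v * m)) * m⁻¹ := by group
      _ = m * ((m⁻¹ * v * m) * z') * m⁻¹ := by rw [(hzc _ hv').eq]
      _ = v * (m * z' * m⁻¹) := by group
  have hfS : ∀ d, (f d : G) ∈ S' := fun d => hk d z' hzS
  have hinj : Function.Injective f := by
    intro d d' he
    have he' : ((k d : G) * d) * z' * ((k d : G) * d)⁻¹ = ((k d' : G) * d') * z' * ((k d' : G) * d')⁻¹ :=
      congrArg Subtype.val he
    set w := ((k d : G) * d)⁻¹ * ((k d' : G) * d')
    have hwz : w * z' = z' * w := by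
      calc w * z' = ((k d : G) * d)⁻¹ * (((k d' : G) * d') * z' * ((k d' : G) * d')⁻¹) * ((k d' : G) * d') := by simp only [w]; group
        _ = z' * w := by rw [← he']; simp only [w]; group
    have hwa : w • a = a := by rw [mul_smul, hna, inv_smul_eq_iff, hna]
    have hwH : w ∈ H := by
      by_cases hw1 : w = 1
      · rw [hw1]; exact H.one_mem
      refine mem_kernel hZ hab H hHa hHcard hHfix hwa fun c hc => ?_
      by_contra hca
      have h1 : w • z' • c = z' • c := by rw [smul_smul, hwz, mul_smul, hc]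
      have h2 : z' • c ≠ a := fun h => hca (MulAction.injective z' (h.trans hza.symm))
      have hzc' : z' • c = c :=
        (eq_or_eq_of_fix hZ (Ne.symm hca) (mem_pst.2 ⟨hwa, hc⟩) hw1 h1).resolve_left h2
      exact hca (eq_of_fixed_involution hZ hab hodd hz2 hzc' hza)
    have hdd : (d : G)⁻¹ * d' ∈ H := by
      have h1 : (d : G) * w * (d : G)⁻¹ ∈ H := hN _ (mem_pst.1 d.2).1 _ hwH
      have h2 : (d : G) * w * (d : G)⁻¹ = (k d : G)⁻¹ * k d' * ((d' : G) * (d : G)⁻¹) := by
        show (d : G) * (((k d : G) * d)⁻¹ * ((k d' : G) * d')) * (d : G)⁻¹ = _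
        group
      rw [h2, Subgroup.mul_mem_cancel_left H (H.mul_mem (H.inv_mem (k d).2) (k d').2)] at h1
      have := hN _ (inv_smul_eq_iff.2 (mem_pst.1 d.2).1.symm) _ h1
      rwa [show (d : G)⁻¹ * ((d' : G) * (d : G)⁻¹) * (d : G)⁻¹⁻¹ = (d : G)⁻¹ * d' by group] at this
    have h1 : (d : G)⁻¹ * d' = 1 := by
      by_contra h
      exact hab (hHfix _ hdd h b (mem_pst.1 (Subgroup.mul_mem _ (Subgroup.inv_mem _ d.2) d'.2)).2).symm
    exact Subtype.ext (inv_mul_eq_one.1 h1)
  have hsurj := ((Nat.bijective_iff_injective_and_card f).2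
    ⟨hinj, (card_involutions_fixing hZ hab hodd hn a).symm⟩).2
  obtain ⟨d, hd⟩ := hsurj ⟨x, hx, hxa⟩
  obtain ⟨d', hd'⟩ := hsurj ⟨y, hy, hya⟩
  have := hfc d _ (hfS d')
  rwa [hd, hd'] at this

/-- A strongly real non-identity element of the kernel is an involution. -/
theorem orderOf_strongly_real {u : G} (hu : u ∈ H) (hu1 : u ≠ 1) {x y : G} (hx : orderOf x = 2)
    (hy : orderOf y = 2) (hxy : x * y = u) : Odd (Fintype.card Ω) ∧ x * y = y * x ∧ orderOf u = 2 := by
  have hxx : x * x = 1 := by rw [← pow_two, ← hx, pow_orderOf_eq_one]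
  have hyy : y * y = 1 := by rw [← pow_two, ← hy, pow_orderOf_eq_one]
  have hua : u • a = a := mem_stabilizer_iff.1 (hHa hu)
  have hux : u * x = x * u⁻¹ := by
    rw [← hxy, mul_inv_rev, inv_eq_of_mul_eq_one_right hxx, inv_eq_of_mul_eq_one_right hyy, mul_assoc]
  have hxa : x • a = a := hHfix u hu hu1 _ (by rw [smul_smul, hux, mul_smul, inv_smul_eq_iff.2 hua.symm])
  have hya : y • a = a := by
    have e : y = x * u := by rw [← hxy, ← mul_assoc, hxx, one_mul]
    rw [e, mul_smul, hua, hxa]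
  have hn : Odd (Fintype.card Ω) := by
    rcases Nat.even_or_odd (Fintype.card Ω) with h | h
    · exact absurd hxa (moved_of_even hZ hab hodd h hx a)
    · exact h
  have hc := commute_involutions_fixing hZ hab hodd H hHa hHcard hHfix hn hx hy hxa hya
  refine ⟨hn, hc, orderOf_eq_prime ?_ hu1⟩
  rw [pow_two, ← hxy]
  calc x * y * (x * y) = x * (y * x) * y := by group
    _ = 1 := by rw [← hc.eq]; simp [← mul_assoc, hxx, mul_assoc, hyy]

/-- The pairs of involutions with product conjugate into the kernel. -/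
theorem eq_or_of_product_conj {x y g u : G} (hx : orderOf x = 2) (hy : orderOf y = 2) (hu : u ∈ H)
    (he : x * y = g * u * g⁻¹) :
    y = x ∨ (Odd (Fintype.card Ω) ∧ ∀ c : Ω, x • c = c → y • c = c) := by
  by_cases hu1 : u = 1
  · left
    rw [hu1, mul_one, mul_inv_cancel] at he
    rw [eq_inv_of_mul_eq_one_right he, inv_eq_of_mul_eq_one_right (by rw [← pow_two, ← hx, pow_orderOf_eq_one] : x * x = 1)]
  right
  obtain ⟨hn, hc, -⟩ := orderOf_strongly_real hZ hab hodd H hHa hHcard hHfix hu hu1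
    (x := g⁻¹ * x * g⁻¹⁻¹) (y := g⁻¹ * y * g⁻¹⁻¹) (by rw [← MulAut.conj_apply, MulEquiv.orderOf_eq, hx])
    (by rw [← MulAut.conj_apply, MulEquiv.orderOf_eq, hy]) (by
      calc g⁻¹ * x * g⁻¹⁻¹ * (g⁻¹ * y * g⁻¹⁻¹) = g⁻¹ * (x * y) * g := by group
        _ = u := by rw [he]; group)
  have hxy : x * y = y * x := by
    calc x * y = g * ((g⁻¹ * x * g⁻¹⁻¹) * (g⁻¹ * y * g⁻¹⁻¹)) * g⁻¹ := by group
      _ = y * x := by rw [hc]; group
  refine ⟨hn, fun c hc' => eq_of_fixed_involution hZ hab hodd hx ?_ hc'⟩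
  rw [smul_smul, hxy, mul_smul, hc']

end CfsgLib.ZGrp
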