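import Mathlib
import Cfsg.Agent.FeitCoh.Kernel
import Cfsg.Agent.ZGrp.Counts

/-!
Classes and characters of a point stabiliser of a Zassenhaus group.
-/

set_option autoImplicit false

namespace CfsgLib.ZGrp

open CfsgLib.CharBasics CfsgLib.Exceptional MulAction

universe u

section Frob

variable {X : Type u} [Group X] [Fintype X] (K : Subgroup X) [K.Normal]
  (hC : ∀ n ∈ K, n ≠ 1 → Subgroup.centralizer ({n} : Set X) ≤ K)
  (hcomm : ∀ x y : X, x * y * x⁻¹ * y⁻¹ ∈ K)

include hC hcomm in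
theorem nonrel_linear [Fintype (Cfsg.IrrCharacter X)]
    [DecidablePred fun χ : Cfsg.IrrCharacter X => Rel K (χ : X → ℂ)] (hK : K ≠ ⊥) :
    (Finset.univ.filter fun χ : Cfsg.IrrCharacter X => ¬ Rel K (χ : X → ℂ)).card = K.index ∧
      ∀ χ : Cfsg.IrrCharacter X, ¬ Rel K (χ : X → ℂ) → Cfsg.charDegree (χ : X → ℂ) = 1 := by
  classical
  set R := Finset.univ.filter fun χ : Cfsg.IrrCharacter X => ¬ Rel K (χ : X → ℂ)
  obtain ⟨h1, -, -⟩ := degree_sums K hC hK
  letI : CommGroup (X ⧸ K) :=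
    { (inferInstance : Group (X ⧸ K)) with
      mul_comm := by
        rintro ⟨x⟩ ⟨y⟩
        refine QuotientGroup.eq.2 ?_
        have := hcomm y⁻¹ x⁻¹
        simpa [mul_assoc] using this }
  let f : ((X ⧸ K) →* ℂˣ) → Cfsg.IrrCharacter X := fun l => ⟨_, isIrr_of_hom (l.comp (QuotientGroup.mk' K))⟩
  have hf : Function.Injective f := fun l l' h => by
    refine MonoidHom.ext fun q => ?_
    obtain ⟨x, rfl⟩ := QuotientGroup.mk'_surjective K q
    exact Units.ext (congrFun (congrArg Subtype.val h) x)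
  haveI : Finite ((X ⧸ K) →* ℂˣ) := inferInstance
  haveI := Fintype.ofFinite ((X ⧸ K) →* ℂˣ)
  have hfR : ∀ l, f l ∈ R := fun l => Finset.mem_filter.2 ⟨Finset.mem_univ _, fun ⟨k, hk, hne⟩ => hne (by
    show ((l.comp (QuotientGroup.mk' K) k : ℂˣ) : ℂ) = ((l.comp (QuotientGroup.mk' K) 1 : ℂˣ) : ℂ)
    rw [MonoidHom.comp_apply, MonoidHom.comp_apply, QuotientGroup.mk'_apply, (QuotientGroup.eq_one_iff k).2 hk,
      map_one (QuotientGroup.mk' K)])⟩
  have hle : K.index ≤ R.card := by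
    have := Finset.card_le_card_of_injOn f (fun l _ => hfR l) (hf.injOn (s := ↑(Finset.univ : Finset ((X ⧸ K) →* ℂˣ))))
    rwa [Finset.card_univ, ← Nat.card_eq_fintype_card, CommGroup.card_monoidHom_of_hasEnoughRootsOfUnity (X ⧸ K) ℂ,
      ← Subgroup.index_eq_card] at this
  have hpos : ∀ χ ∈ R, 1 ≤ Cfsg.charDegree (χ : X → ℂ) ^ 2 := fun χ _ => Nat.one_le_pow _ _ (charDegree_pos χ.2)
  have hle2 : R.card ≤ K.index := by
    rw [← h1, Finset.card_eq_sum_ones]
    exact Finset.sum_le_sum hpos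
  refine ⟨le_antisymm hle2 hle, fun χ hχ => ?_⟩
  by_contra hne
  have hm : χ ∈ R := Finset.mem_filter.2 ⟨Finset.mem_univ _, hχ⟩
  have hlt : ∑ _x ∈ R, 1 < ∑ x ∈ R, Cfsg.charDegree (x : X → ℂ) ^ 2 := Finset.sum_lt_sum hpos ⟨χ, hm, by
    have := charDegree_pos χ.2
    nlinarith [Nat.lt_of_le_of_ne this (Ne.symm hne)]⟩
  rw [← Finset.card_eq_sum_ones, h1] at hlt
  omega

omit [Fintype X] in
include hC hcomm in
theorem conj_of_coset [Finite X] {x y : X} (hx : x ∉ K) (hxy : y * x⁻¹ ∈ K) : IsConj x y := by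
  let f : K → K := fun k => ⟨(k : X) * x * (k : X)⁻¹ * x⁻¹, hcomm k x⟩
  have hf : Function.Injective f := fun a b hab => by
    have h := congrArg Subtype.val hab
    have h' : (a : X) * x * (a : X)⁻¹ = (b : X) * x * (b : X)⁻¹ := mul_right_cancel h
    by_contra hne
    refine hx (hC ((b : X)⁻¹ * a) (K.mul_mem (K.inv_mem b.2) a.2)
      (fun e => hne (Subtype.ext (inv_mul_eq_one.1 e).symm)) ?_)
    rw [Subgroup.mem_centralizer_singleton_iff]
    calc x * ((b : X)⁻¹ * a) = (b : X)⁻¹ * ((b : X) * x * (b : X)⁻¹) * a := by group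
      _ = (b : X)⁻¹ * a * x := by rw [← h']; group
  obtain ⟨k, hk⟩ := (Finite.injective_iff_surjective.1 hf) ⟨y * x⁻¹, hxy⟩
  exact isConj_iff.2 ⟨k, mul_right_cancel (congrArg Subtype.val hk)⟩

include hC hcomm in
/-- There are no more relevant characters than classes meeting the kernel outside the identity. -/
theorem card_rel_le [Fintype (Cfsg.IrrCharacter X)]
    [DecidablePred fun χ : Cfsg.IrrCharacter X => Rel K (χ : X → ℂ)] (hK : K ≠ ⊥) :
    (Finset.univ.filter fun χ : Cfsg.IrrCharacter X => Rel K (χ : X → ℂ)).card ≤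
      Nat.card {C : ConjClasses X // ∃ k ∈ K, k ≠ 1 ∧ ConjClasses.mk k = C} := by
  classical
  haveI : Finite (ConjClasses X) := Quotient.finite _
  haveI := Fintype.ofFinite (ConjClasses X)
  obtain ⟨hR, -⟩ := nonrel_linear K hC hcomm hK
  have htot := Finset.card_filter_add_card_filter_not (s := (Finset.univ : Finset (Cfsg.IrrCharacter X)))
    (fun χ : Cfsg.IrrCharacter X => Rel K (χ : X → ℂ))
  rw [hR, Finset.card_univ, ← Nat.card_eq_fintype_card, card_irr, Nat.card_eq_fintype_card, ← Finset.card_univ] at htot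
  set In := Finset.univ.filter fun C : ConjClasses X => ∃ k ∈ K, k ≠ 1 ∧ ConjClasses.mk k = C
  set Out := Finset.univ.filter fun C : ConjClasses X => ∃ k, k ∉ K ∧ ConjClasses.mk k = C
  have hcov : (Finset.univ : Finset (ConjClasses X)) ⊆ insert (ConjClasses.mk 1) (In ∪ Out) := by
    intro C _
    obtain ⟨k, rfl⟩ := ConjClasses.mk_surjective C
    simp only [Finset.mem_insert, Finset.mem_union, In, Out, Finset.mem_filter, Finset.mem_univ, true_and]
    by_cases h : k ∈ K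
    · by_cases h1 : k = 1
      · exact Or.inl (h1 ▸ rfl)
      · exact Or.inr (Or.inl ⟨k, h, h1, rfl⟩)
    · exact Or.inr (Or.inr ⟨k, h, rfl⟩)
  have hOut : Out.card + 1 ≤ K.index := by
    haveI := Fintype.ofFinite (X ⧸ K)
    let g : ConjClasses X → X ⧸ K := fun C => Quotient.liftOn C (fun x : X => (x : X ⧸ K)) (by
      intro x y hxy
      obtain ⟨c, rfl⟩ := isConj_iff.1 hxy
      refine QuotientGroup.eq.2 ?_
      have := hcomm x⁻¹ c
      simpa [mul_assoc] using this)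
    have hmaps : ∀ C ∈ Out, g C ∈ (Finset.univ : Finset (X ⧸ K)).erase 1 := fun C hC' => by
      obtain ⟨k, hk, rfl⟩ := (Finset.mem_filter.1 hC').2
      exact Finset.mem_erase.2 ⟨fun e => hk ((QuotientGroup.eq_one_iff k).1 e), Finset.mem_univ _⟩
    have hinj : Set.InjOn g ↑Out := fun C hC' D hD hCD => by
      obtain ⟨x, hx, rfl⟩ := (Finset.mem_filter.1 (Finset.mem_coe.1 hC')).2
      obtain ⟨y, hy, rfl⟩ := (Finset.mem_filter.1 (Finset.mem_coe.1 hD)).2
      refine ConjClasses.mk_eq_mk_iff_isConj.2 (conj_of_coset K hC hcomm hx ?_)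
      exact (inferInstance : K.Normal).mem_comm (QuotientGroup.eq.1 hCD)
    have := Finset.card_le_card_of_injOn g hmaps hinj
    rw [Finset.card_erase_of_mem (Finset.mem_univ _), Finset.card_univ, ← Nat.card_eq_fintype_card,
      ← Subgroup.index_eq_card] at this
    have := Nat.pos_of_ne_zero (Subgroup.index_ne_zero_of_finite (H := K))
    omega
  have h1 := (Finset.card_le_card hcov).trans ((Finset.card_insert_le _ _).trans
    (Nat.add_le_add_right (Finset.card_union_le _ _) 1))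
  rw [Nat.card_eq_fintype_card, Fintype.card_subtype]
  change _ ≤ In.card
  omega

end Frob

section Zass

variable {G Ω : Type*} [Group G] [Finite G] [MulAction G Ω] [Fintype Ω]
variable (hZ : Cfsg.IsZassenhausGroup G Ω) {a b : Ω} (hab : a ≠ b) (H : Subgroup G)
  (hHa : H ≤ stabilizer G a) (hHcard : Nat.card H + 1 = Fintype.card Ω)
  (hHfix : ∀ u ∈ H, u ≠ 1 → ∀ c : Ω, u • c = c → c = a)
include hZ hab hHa hHcard hHfix

theorem kernel_nontrivial : ∃ u ∈ H, u ≠ 1 := by
  have := four_le_card hZ hab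
  have h2 : 1 < Nat.card H := by omega
  obtain ⟨⟨u, hu⟩, hu1⟩ := Subgroup.ne_bot_iff_exists_ne_one.1 ((Subgroup.one_lt_card_iff_ne_bot H).1 h2)
  exact ⟨u, hu, fun e => hu1 (Subtype.ext e)⟩

theorem conj_kernel {x u : G} (hx : x • a = a) (hu : u ∈ H) : x * u * x⁻¹ ∈ H := by
  by_cases h1 : u = 1
  · rw [h1, mul_one, mul_inv_cancel]; exact H.one_mem
  refine mem_kernel hZ hab H hHa hHcard hHfix ?_ fun c hc => ?_
  · rw [mul_smul, mul_smul, inv_smul_eq_iff.2 hx.symm, mem_stabilizer_iff.1 (hHa hu), hx]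
  · rw [mul_smul, mul_smul] at hc
    have := hHfix u hu h1 _ (MulAction.injective x (hc.trans (smul_inv_smul x c).symm))
    rw [inv_smul_eq_iff] at this
    rw [this, hx]

theorem normalizer_kernel : Subgroup.normalizer (H : Set G) = stabilizer G a := by
  refine le_antisymm (fun x hx => ?_) (fun x hx => Subgroup.mem_normalizer_iff.2 fun u => ⟨conj_kernel hZ hab H hHa hHcard hHfix hx, fun h => ?_⟩)
  · obtain ⟨u, hu, hu1⟩ := kernel_nontrivial hZ hab H hHa hHcard hHfix
    refine mem_stabilizer_iff.2 (hHfix (x * u * x⁻¹) ((Subgroup.mem_normalizer_iff.1 hx u).1 hu)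
      (fun e => hu1 (conj_eq_one_iff.1 e)) _ ?_)
    rw [mul_smul, mul_smul, inv_smul_smul, mem_stabilizer_iff.1 (hHa hu)]
  · have := conj_kernel hZ hab H hHa hHcard hHfix (x := x⁻¹) (inv_smul_eq_iff.2 (mem_stabilizer_iff.1 hx).symm) h
    simpa [mul_assoc] using this

theorem kernel_ti : ∀ g : G, g ∉ Subgroup.normalizer (H : Set G) → ∀ k ∈ H, g * k * g⁻¹ ∈ H → k = 1 := by
  intro g hg k hk hgk
  rw [normalizer_kernel hZ hab H hHa hHcard hHfix, mem_stabilizer_iff] at hg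
  by_contra hk1
  refine hg (hHfix _ hgk (fun e => hk1 (conj_eq_one_iff.1 e)) _ ?_)
  rw [mul_smul, mul_smul, inv_smul_smul, mem_stabilizer_iff.1 (hHa hk)]

theorem kernel_centralizer : ∀ k ∈ H, k ≠ 1 → Subgroup.centralizer ({k} : Set G) ≤ H := by
  intro k hk hk1 x hx
  rw [Subgroup.mem_centralizer_singleton_iff] at hx
  have hka := mem_stabilizer_iff.1 (hHa hk)
  have hxa : x • a = a := hHfix k hk hk1 _ (by rw [← mul_smul, ← hx, mul_smul, hka])
  by_cases h1 : x = 1
  · rw [h1]; exact H.one_mem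
  refine mem_kernel hZ hab H hHa hHcard hHfix hxa fun c hc => ?_
  by_contra hca
  have h2 : x • k • c = k • c := by rw [← mul_smul, hx, mul_smul, hc]
  have h3 : k • c ≠ c := fun e => hca (hHfix k hk hk1 c e)
  have h4 : k • c ≠ a := fun e => hca (MulAction.injective k (e.trans hka.symm))
  exact h1 (eq_one_of_three hZ (Ne.symm hca) h3.symm h4.symm hxa hc h2)

/-- The point stabiliser is the product of the kernel and a two-point stabiliser. -/
theorem exists_prod {x : G} (hx : x • a = a) : ∃ k ∈ H, ∃ d ∈ pst G a b, x = k * d := by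
  let f : H × pst G a b → stabilizer G a := fun p => ⟨(p.1 : G) * p.2, (stabilizer G a).mul_mem (hHa p.1.2) p.2.2.1⟩
  have hinj : Function.Injective f := by
    rintro ⟨k, d⟩ ⟨k', d'⟩ he
    have he' : (k : G) * d = (k' : G) * d' := congrArg Subtype.val he
    have hz : (k' : G)⁻¹ * k = (d' : G) * (d : G)⁻¹ := by
      calc (k' : G)⁻¹ * k = (k' : G)⁻¹ * ((k : G) * d) * (d : G)⁻¹ := by group
        _ = (d' : G) * (d : G)⁻¹ := by rw [he']; group
    have hz1 : (k' : G)⁻¹ * k = 1 := by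
      by_contra hne
      refine hab.symm (hHfix _ (H.mul_mem (H.inv_mem k'.2) k.2) hne b ?_)
      rw [hz]
      exact (mem_pst.1 (Subgroup.mul_mem _ d'.2 (Subgroup.inv_mem _ d.2))).2
    exact Prod.ext (Subtype.ext (inv_mul_eq_one.1 hz1).symm) (Subtype.ext (mul_inv_eq_one.1 (hz.symm.trans hz1)).symm)
  have hcard : Nat.card (H × pst G a b) = Nat.card (stabilizer G a) := by
    rw [Nat.card_prod, card_stab hZ hab, ← hHcard, Nat.add_sub_cancel]
  obtain ⟨⟨k, d⟩, hkd⟩ := ((Nat.bijective_iff_injective_and_card f).2 ⟨hinj, hcard⟩).2 ⟨x, mem_stabilizer_iff.2 hx⟩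
  exact ⟨k, k.2, d, d.2, (congrArg Subtype.val hkd).symm⟩

theorem stab_commutator (hcy : ∀ x ∈ pst G a b, ∀ y ∈ pst G a b, x * y = y * x) {x y : G} (hx : x • a = a)
    (hy : y • a = a) : x * y * x⁻¹ * y⁻¹ ∈ H := by
  obtain ⟨k, hk, d, hd, rfl⟩ := exists_prod hZ hab H hHa hHcard hHfix hx
  obtain ⟨l, hl, c, hc, rfl⟩ := exists_prod hZ hab H hHa hHcard hHfix hy
  have hcj : ∀ z ∈ pst G a b, ∀ u ∈ H, z * u * z⁻¹ ∈ H := fun z hz u hu =>
    conj_kernel hZ hab H hHa hHcard hHfix (mem_pst.1 hz).1 hu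
  have e : k * d * (l * c) * (k * d)⁻¹ * (l * c)⁻¹ =
      k * (d * l * d⁻¹) * ((d * c * d⁻¹) * k⁻¹ * (d * c * d⁻¹)⁻¹) * ((d * c * d⁻¹) * c⁻¹) * l⁻¹ := by group
  rw [e, show d * c * d⁻¹ = c by rw [hcy d hd c hc]; group, mul_inv_cancel, mul_one]
  exact H.mul_mem (H.mul_mem (H.mul_mem hk (hcj d hd l hl)) (hcj c hc _ (H.inv_mem hk))) (H.inv_mem hl)

end Zass

end CfsgLib.ZGrp
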