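import Mathlib

/-!
The arithmetic in Feit's inequality for Zassenhaus groups.
-/

set_option autoImplicit false

namespace CfsgLib.ZGrp

theorem feit_num {ι : Type*} (U : Finset ι) (c k : ι → ℤ) (h e P b D ε : ℤ) (hε : ε = 1 ∨ ε = -1)
    (he : 3 ≤ e) (hP : 3 ≤ P) (hh : e * P + 1 = h) (hD : 0 < D)
    (hU : e + 1 ≤ 2 * (U.card : ℤ)) (hk : ∀ i ∈ U, 1 ≤ k i)
    (hQ : 2 * (∑ i ∈ U, c i ^ 2 + b ^ 2 * P - 2 * ε * b) = e - 1)
    (hCol : 2 * ∑ i ∈ U, c i * (c i + k i * h) + 2 * (D * (b * P - ε)) + 2 + (e - 1) * (h + 1) = 0)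
    (hSq : 2 * ∑ i ∈ U, (c i + k i * h) ^ 2 + 2 * (D ^ 2 * P) + 2 + (e - 1) * (h + 1) ^ 2 = 2 * ((h + 1) * h * e)) :
    D = e ∧ ε = 1 ∧ b = 0 ∧ ∀ i ∈ U, k i = 1 ∧ (c i = 0 ∨ c i = -1) := by
  have hεε : ε * ε = 1 := by rcases hε with rfl | rfl <;> norm_num
  have hβ : 0 ≤ b ^ 2 * P - 2 * ε * b := by
    rcases eq_or_ne b 0 with rfl | hb
    · simp
    · have h1 : 1 ≤ b ^ 2 := by have : 0 < b ^ 2 := by positivity
                                omega
      have h2 : 2 * (ε * b) ≤ 2 * b ^ 2 := by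
        have h3 : 0 ≤ (ε * b - 1) ^ 2 := sq_nonneg _
        have h4 : (ε * b) ^ 2 = b ^ 2 := by rw [mul_pow, pow_two ε, hεε, one_mul]
        nlinarith
      nlinarith
  have hQe : 2 * ∑ i ∈ U, c i ^ 2 ≤ e - 1 := by linarith
  have hh1 : 3 * e + 1 ≤ h := by nlinarith
  -- all `k` equal one
  have hci : ∀ i ∈ U, c i ^ 2 ≤ ∑ j ∈ U, c j ^ 2 := fun i hi =>
    Finset.single_le_sum (f := fun j => c j ^ 2) (fun j _ => sq_nonneg _) hi
  have hterm : ∀ i ∈ U, h ^ 2 - 2 * h * c i ^ 2 + (k i - 1) * h * (3 * h - 2 * e) ≤ (c i + k i * h) ^ 2 := by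
    intro i hi
    have hk1 := hk i hi
    have hsq : -(c i ^ 2) ≤ c i := by nlinarith [sq_nonneg (c i + 1)]
    have hce : -e ≤ c i := by have := hci i hi; linarith
    have h1 : (k i - 1) * h * (3 * h) ≤ (k i ^ 2 - 1) * h ^ 2 := by
      rcases eq_or_lt_of_le hk1 with h1 | h1
      · rw [← h1]; simp
      · nlinarith [mul_nonneg (mul_nonneg (by linarith : 0 ≤ k i - 1) (sq_nonneg h)) (by linarith : 0 ≤ k i - 2)]
    have h2 : -(2 * h * c i ^ 2) - (k i - 1) * h * (2 * e) ≤ 2 * h * (k i * c i) := by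
      have h3 := mul_le_mul_of_nonneg_left hsq (by linarith : 0 ≤ 2 * h)
      have h4 := mul_le_mul_of_nonneg_left hce (mul_nonneg (by linarith : 0 ≤ k i - 1) (by linarith : 0 ≤ 2 * h))
      linarith
    nlinarith [sq_nonneg (c i)]
  set K := ∑ i ∈ U, (k i - 1) with hK
  have hsum : (U.card : ℤ) * h ^ 2 - 2 * h * (∑ i ∈ U, c i ^ 2) + K * h * (3 * h - 2 * e) ≤
      ∑ i ∈ U, (c i + k i * h) ^ 2 := by
    refine le_trans (le_of_eq ?_) (Finset.sum_le_sum hterm)
    rw [Finset.sum_add_distrib, Finset.sum_sub_distrib, Finset.sum_const, ← Finset.mul_sum, hK,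
      ← Finset.sum_mul, ← Finset.sum_mul, nsmul_eq_mul]
  have hD2 : 0 ≤ D ^ 2 * P := mul_nonneg (sq_nonneg D) (by linarith)
  have hK0 : 0 ≤ K := Finset.sum_nonneg fun i hi => by have := hk i hi; linarith
  have hh0 : 0 ≤ h := by linarith
  have hext : h ^ 2 * (2 * (U.card : ℤ) - (e + 1)) + 2 * (K * h * (3 * h - 2 * e)) < 2 * (h * e) := by
    have h5 := mul_le_mul_of_nonneg_left hQe hh0
    nlinarith
  have hU2 : 2 * (U.card : ℤ) = e + 1 := by
    by_contra hne
    have h6 : h ^ 2 * 1 ≤ h ^ 2 * (2 * (U.card : ℤ) - (e + 1)) :=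
      mul_le_mul_of_nonneg_left (by omega) (sq_nonneg h)
    have h7 : 0 ≤ K * h * (3 * h - 2 * e) := mul_nonneg (mul_nonneg hK0 hh0) (by linarith)
    nlinarith
  have hKz : K = 0 := by
    by_contra hne
    have h7 : 1 * h * (3 * h - 2 * e) ≤ K * h * (3 * h - 2 * e) :=
      mul_le_mul_of_nonneg_right (mul_le_mul_of_nonneg_right (by omega) hh0) (by linarith)
    rw [hU2, sub_self, mul_zero, zero_add] at hext
    nlinarith
  have hk1 : ∀ i ∈ U, k i = 1 := fun i hi => by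
    have := (Finset.sum_eq_zero_iff_of_nonneg fun i hi => (by have := hk i hi; linarith : 0 ≤ k i - 1)).1 hKz i hi
    linarith
  set S := ∑ i ∈ U, c i with hS
  set Q := ∑ i ∈ U, c i ^ 2 with hQdef
  have hC' : ∑ i ∈ U, c i * (c i + k i * h) = Q + h * S := by
    rw [hQdef, hS, Finset.mul_sum, ← Finset.sum_add_distrib]
    exact Finset.sum_congr rfl fun i hi => by rw [hk1 i hi]; ring
  have hS' : ∑ i ∈ U, (c i + k i * h) ^ 2 = Q + 2 * h * S + (U.card : ℤ) * h ^ 2 := by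
    rw [hQdef, hS, Finset.mul_sum, ← nsmul_eq_mul, ← Finset.sum_const, ← Finset.sum_add_distrib, ← Finset.sum_add_distrib]
    exact Finset.sum_congr rfl fun i hi => by rw [hk1 i hi]; ring
  rw [hC'] at hCol
  rw [hS'] at hSq
  set u := ε * (D - b) with hu
  have hD' : D = b + ε * u := by rw [hu, ← mul_assoc, hεε, one_mul]; ring
  have hgh : P * (D - b) ^ 2 + 2 * ε * (D - b) = e * (h + 1) := by
    refine mul_left_cancel₀ (two_ne_zero (α := ℤ)) ?_
    linear_combination hSq - 2 * hCol + hQ - h ^ 2 * hU2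
  have hquad : (u - e) * (P * (u + e) + 2) = 0 := by
    have h8 : (D - b) ^ 2 = u ^ 2 := by rw [hu, mul_pow, pow_two ε, hεε, one_mul]
    rw [h8, ← hh] at hgh
    linear_combination hgh + 2 * hu
  have hue : u = e := by
    rcases mul_eq_zero.1 hquad with h1 | h1
    · linarith
    · exfalso
      have h2 : P ∣ 2 := ⟨-(u + e), by linarith⟩
      have := Int.le_of_dvd (by norm_num) h2
      linarith
  rw [hue] at hD'
  have hlin : h * (2 * S + 2 * ε * b + e - 1) = 0 := by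
    rw [hD'] at hCol
    rw [← hh] at hCol ⊢
    linear_combination hCol - hQ - (2 * e) * (b * 0 - 1) * hεε
  have h2S : 2 * S = -(e - 1) - 2 * ε * b := by
    rcases mul_eq_zero.1 hlin with h1 | h1 <;> linarith
  have hQS : 0 ≤ Q + S := by
    rw [hQdef, hS, ← Finset.sum_add_distrib]
    exact Finset.sum_nonneg fun i _ => by rcases le_or_gt 0 (c i) with h1 | h1 <;> nlinarith
  have hb : b = 0 := by
    by_contra hne
    have h1 : 0 < b ^ 2 := by positivity
    have h4 : (ε * b) ^ 2 = b ^ 2 := by rw [mul_pow, pow_two ε, hεε, one_mul]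
    nlinarith [sq_nonneg (ε * b - 1)]
  subst hb
  rw [zero_add] at hD'
  have hε1 : ε = 1 := by
    rcases hε with h1 | h1
    · exact h1
    · subst h1; linarith
  subst hε1
  refine ⟨by linarith, rfl, rfl, fun i hi => ⟨hk1 i hi, ?_⟩⟩
  have hz : ∑ j ∈ U, c j * (c j + 1) = 0 := by
    rw [Finset.sum_congr rfl (fun j _ => (by ring : c j * (c j + 1) = c j ^ 2 + c j)), Finset.sum_add_distrib, ← hQdef, ← hS]
    linarith
  have := (Finset.sum_eq_zero_iff_of_nonneg fun j _ => (by rcases le_or_gt 0 (c j) with h1 | h1 <;> nlinarith :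
    0 ≤ c j * (c j + 1))).1 hz i hi
  rcases mul_eq_zero.1 this with h1 | h1
  · exact Or.inl h1
  · exact Or.inr (by linarith)

end CfsgLib.ZGrp
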