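import Mathlib

/-!
Arithmetic for the Suzuki case of the classification of Zassenhaus groups.
-/

set_option autoImplicit false

namespace CfsgLib.ZGrp

/-- The descent: the only multiplier is `2`. -/
theorem descent_two (x y : ℕ) (M : ℤ) (hx : 1 ≤ x) (hxy : x < y)
    (h : (x : ℤ) ^ 2 + (y : ℤ) ^ 2 + 8 = 4 * x + 4 * y + M * x * y) : M = 2 := by
  induction x using Nat.strong_induction_on generalizing y with
  | _ x ih =>
    rcases Nat.lt_or_ge x 2 with h2 | h2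
    · obtain rfl : x = 1 := by omega
      push_cast at h
      have hd : (y : ℤ) ∣ 5 := ⟨M + 4 - y, by linear_combination h⟩
      have hd' : y ∣ 5 := by exact_mod_cast hd
      rcases (Nat.dvd_prime (by norm_num : Nat.Prime 5)).1 hd' with rfl | rfl
      · omega
      · push_cast at h; linarith
    · set z : ℤ := M * x + 4 - y with hz
      have hprod : (y : ℤ) * z = (x : ℤ) ^ 2 - 4 * x + 8 := by rw [hz]; linear_combination -h
      have hy : (x : ℤ) + 1 ≤ y := by exact_mod_cast hxy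
      have hx2 : (2 : ℤ) ≤ x := by exact_mod_cast h2
      have hz0 : 0 < z := by
        by_contra hc
        have : (y : ℤ) * z ≤ 0 := mul_nonpos_of_nonneg_of_nonpos (by positivity) (not_lt.1 hc)
        nlinarith [sq_nonneg ((x : ℤ) - 2)]
      have hzx : z < x := by
        by_contra hc
        have : (y : ℤ) * x ≤ y * z := mul_le_mul_of_nonneg_left (not_lt.1 hc) (by positivity)
        nlinarith
      obtain ⟨m, hm⟩ : ∃ m : ℕ, z = m := ⟨z.toNat, (Int.toNat_of_nonneg hz0.le).symm⟩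
      refine ih m (by exact_mod_cast (hm ▸ hzx)) x (by exact_mod_cast (hm ▸ hz0)) (by exact_mod_cast (hm ▸ hzx)) ?_
      rw [← hm, hz]
      linear_combination h

/-- The case `|U| = q²`: two tori of index four force `2 q` to be a square. -/
theorem odd_exponent_of_tori {k : ℕ} (hk : 2 ≤ k) (S : Finset ℕ) (w : ℕ → ℕ)
    (hodd : ∀ v ∈ S, Odd v ∧ 1 < v ∧ v ∣ (2 ^ k) ^ 2 + 1)
    (hw : ∀ v ∈ S, (w v = 2 ∨ w v = 4) ∧ w v ∣ v - 1)
    (hcop : ∀ v ∈ S, ∀ v' ∈ S, v ≠ v' → v.Coprime v')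
    (hsum : ∑ v ∈ S, ((v : ℚ) - 1) / w v = (2 ^ k : ℕ) / 2)
    (hA : ∑ v ∈ S, ((v : ℚ) - 1) / ((v : ℚ) * w v) ≤
      ((2 ^ k : ℕ) : ℚ) * (((2 ^ k : ℕ) : ℚ) - 1) / (2 * (((2 ^ k : ℕ) : ℚ) ^ 2 + 1))) : Odd k := by
  classical
  set q : ℕ := 2 ^ k with hq
  have hq4 : 4 ≤ q := by
    calc 4 = 2 ^ 2 := by norm_num
      _ ≤ 2 ^ k := Nat.pow_le_pow_right (by norm_num) hk
  have hqQ : (4 : ℚ) ≤ q := by exact_mod_cast hq4
  set B : ℚ := (q : ℚ) * ((q : ℚ) - 1) / (2 * ((q : ℚ) ^ 2 + 1)) with hB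
  have hB2 : B < 1 / 2 := by
    rw [hB, div_lt_iff₀ (by positivity)]
    nlinarith
  have hv5 : ∀ v ∈ S, w v = 4 → (5 : ℚ) ≤ v := by
    intro v hv h4
    obtain ⟨⟨j, hj⟩, h1, -⟩ := hodd v hv
    have h := (hw v hv).2
    rw [h4] at h
    have : 5 ≤ v := by omega
    exact_mod_cast this
  have hv3 : ∀ v ∈ S, (3 : ℚ) ≤ v := by
    intro v hv
    obtain ⟨⟨j, hj⟩, h1, -⟩ := hodd v hv
    have : 3 ≤ v := by omega
    exact_mod_cast this
  have hterm : ∀ v ∈ S, (1 : ℚ) / 5 ≤ ((v : ℚ) - 1) / ((v : ℚ) * w v) := by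
    intro v hv
    have h3 := hv3 v hv
    rcases (hw v hv).1 with h | h <;> rw [h] <;> rw [le_div_iff₀ (by positivity)] <;> push_cast
    · nlinarith
    · nlinarith [hv5 v hv h]
  have hall : ∀ v ∈ S, w v = 4 := by
    intro v₀ hv₀
    rcases (hw v₀ hv₀).1 with h2 | h4
    · exfalso
      have h3 := hv3 v₀ hv₀
      by_cases hone : S = {v₀}
      · rw [hone, Finset.sum_singleton, h2] at hsum hA
        push_cast at hsum hA
        have hv : (v₀ : ℚ) = q + 1 := by linarith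
        rw [hv, hB, div_le_div_iff₀ (by positivity) (by positivity)] at hA
        nlinarith
      · obtain ⟨v₁, hv₁, hne⟩ : ∃ v₁ ∈ S, v₁ ≠ v₀ := by
          by_contra hc
          push Not at hc
          exact hone (Finset.eq_singleton_iff_unique_mem.2 ⟨hv₀, hc⟩)
        have hsub : ∑ v ∈ ({v₀, v₁} : Finset ℕ), ((v : ℚ) - 1) / ((v : ℚ) * w v) ≤
            ∑ v ∈ S, ((v : ℚ) - 1) / ((v : ℚ) * w v) :=
          Finset.sum_le_sum_of_subset_of_nonneg (by simp [Finset.insert_subset_iff, hv₀, hv₁])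
            (fun v hv _ => le_trans (by norm_num) (hterm v hv))
        rw [Finset.sum_pair hne.symm] at hsub
        have h5 := hterm v₁ hv₁
        have h13 : (1 : ℚ) / 3 ≤ ((v₀ : ℚ) - 1) / ((v₀ : ℚ) * w v₀) := by
          rw [h2, le_div_iff₀ (by positivity)]
          push_cast; nlinarith
        linarith
    · exact h4
  have hsum4 : ∑ v ∈ S, ((v : ℚ) - 1) = 2 * q := by
    have : ∑ v ∈ S, ((v : ℚ) - 1) / w v = (∑ v ∈ S, ((v : ℚ) - 1)) / 4 := by
      rw [Finset.sum_div]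
      exact Finset.sum_congr rfl fun v hv => by rw [hall v hv]; norm_num
    rw [this] at hsum
    linarith
  have hcard : S.card ≤ 2 := by
    by_contra hc
    have h15 : ∀ v ∈ S, (1 : ℚ) / 5 ≤ ((v : ℚ) - 1) / ((v : ℚ) * w v) := hterm
    have h := Finset.card_nsmul_le_sum S _ _ h15
    rw [nsmul_eq_mul] at h
    have h3 : (3 : ℚ) ≤ S.card := by exact_mod_cast (by omega : 3 ≤ S.card)
    nlinarith
  rcases (by omega : S.card = 0 ∨ S.card = 1 ∨ S.card = 2) with h | h | h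
  · rw [Finset.card_eq_zero.1 h, Finset.sum_empty] at hsum4
    linarith
  · exfalso
    obtain ⟨v, rfl⟩ := Finset.card_eq_one.1 h
    rw [Finset.sum_singleton] at hsum4
    have hv : v = 2 * q + 1 := by exact_mod_cast (by linarith : (v : ℚ) = 2 * q + 1)
    obtain ⟨-, -, c, hc⟩ := hodd v (Finset.mem_singleton_self v)
    have hd : v ∣ 5 := by
      have hz : (v : ℤ) ∣ 5 := ⟨4 * c - (2 * q - 1), by
        have : ((q : ℤ) ^ 2 + 1) = v * c := by exact_mod_cast hc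
        have hv' : (v : ℤ) = 2 * q + 1 := by exact_mod_cast hv
        rw [hv'] at this ⊢
        linear_combination 4 * this⟩
      exact_mod_cast hz
    have := Nat.le_of_dvd (by norm_num) hd
    omega
  · obtain ⟨x', y', hne, rfl⟩ := Finset.card_eq_two.1 h
    rw [Finset.sum_pair hne] at hsum4
    obtain ⟨x, y, hxy, hxS, hyS, hs⟩ : ∃ x y : ℕ, x < y ∧ x ∈ ({x', y'} : Finset ℕ) ∧
        y ∈ ({x', y'} : Finset ℕ) ∧ x + y = 2 * q + 2 := by
      have hs : x' + y' = 2 * q + 2 := by exact_mod_cast (by linarith : (x' : ℚ) + y' = 2 * q + 2)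
      rcases lt_or_gt_of_ne hne with hl | hl
      · exact ⟨x', y', hl, by simp, by simp, hs⟩
      · exact ⟨y', x', hl, by simp, by simp, by omega⟩
    obtain ⟨c, hc⟩ := (hcop x hxS y hyS hxy.ne).mul_dvd_of_dvd_of_dvd (hodd x hxS).2.2 (hodd y hyS).2.2
    have hcz : ((q : ℤ) ^ 2 + 1) = (x : ℤ) * y * c := by exact_mod_cast hc
    have hsz : (x : ℤ) + y = 2 * q + 2 := by exact_mod_cast hs
    have hM := descent_two x y (4 * c - 2) (by have := (hodd x hxS).2.1; omega) hxy (by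
      have hq' : (q : ℤ) * 2 = x + y - 2 := by linarith
      linear_combination 4 * hcz - ((q : ℤ) * 2 + x + y - 2) * hq')
    have hc1 : (c : ℤ) = 1 := by omega
    rw [hc1, mul_one] at hcz
    have hsq : ((y : ℤ) - x) ^ 2 = 8 * q := by
      calc ((y : ℤ) - x) ^ 2 = ((x : ℤ) + y) ^ 2 - 4 * (x * y) := by ring
        _ = _ := by rw [hsz, ← hcz]; ring
    have hd : (y - x) ^ 2 = 2 ^ (k + 3) := by
      have : ((y - x : ℕ) : ℤ) ^ 2 = ((2 ^ (k + 3) : ℕ) : ℤ) := by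
        rw [Nat.cast_sub hxy.le, hsq, hq]; push_cast; ring
      exact_mod_cast this
    obtain ⟨i, -, hi⟩ := (Nat.dvd_prime_pow Nat.prime_two).1 (hd ▸ dvd_pow_self (y - x) two_ne_zero)
    rw [hi, ← pow_mul] at hd
    have := Nat.pow_right_injective le_rfl hd
    exact ⟨i - 2, by omega⟩

/-- The case `|U| = q³` is impossible. -/
theorem false_of_torus {k v w : ℕ} (hk : 2 ≤ k) (hdvd : 2 ^ k + 1 ∣ v) (hw : ∃ i, w = 2 ^ i) (hw0 : 2 ∣ w)
    (hwle : w ≤ 2 * 2 ^ k + 4) (hsum : 2 * (v - 1) = w * 2 ^ k)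
    (hA : ((v : ℚ) - 1) / ((v : ℚ) * w) ≤
      (((2 ^ k : ℕ) : ℚ) * (((2 ^ k : ℕ) : ℚ) ^ 3 + 1) - 2 * ((2 ^ k : ℕ) : ℚ) ^ 3) /
        (2 * (((2 ^ k : ℕ) : ℚ) ^ 3 + 1) * (((2 ^ k : ℕ) : ℚ) - 1))) : False := by
  set q : ℕ := 2 ^ k with hq
  have hq4 : 4 ≤ q := by
    calc 4 = 2 ^ 2 := by norm_num
      _ ≤ 2 ^ k := Nat.pow_le_pow_right (by norm_num) hk
  obtain ⟨i, rfl⟩ := hw
  obtain ⟨c, hc⟩ := hdvd
  have hv1 : 1 ≤ v := by
    by_contra hv
    have : v = 0 := by omega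
    rw [this] at hsum
    have : 0 < 2 ^ i * q := by positivity
    omega
  have hi1 : 1 ≤ i := by
    by_contra hi
    have : i = 0 := by omega
    subst this
    norm_num at hw0
  obtain ⟨j, rfl⟩ : ∃ j, i = j + 1 := ⟨i - 1, by omega⟩
  have hu : (2 : ℤ) ^ j * q + 1 = v := by
    have : ((2 * (v - 1) : ℕ) : ℤ) = ((2 ^ (j + 1) * q : ℕ) : ℤ) := by exact_mod_cast hsum
    rw [pow_succ] at this
    push_cast [Nat.cast_sub hv1] at this
    linarith
  have hz : ((q : ℤ) + 1) ∣ ((2 : ℤ) ^ j - 1) := ⟨2 ^ j - c, by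
    have : (v : ℤ) = ((q : ℤ) + 1) * c := by exact_mod_cast hc
    linear_combination -hu - this⟩
  have hz' : q + 1 ∣ 2 ^ j - 1 := by
    have h1 : (1 : ℕ) ≤ 2 ^ j := Nat.one_le_two_pow
    have : ((q + 1 : ℕ) : ℤ) ∣ ((2 ^ j - 1 : ℕ) : ℤ) := by push_cast [Nat.cast_sub h1]; exact hz
    exact_mod_cast this
  have hj0 : j = 0 := by
    by_contra hj
    have h1 : 2 ≤ 2 ^ j := by
      calc 2 = 2 ^ 1 := by norm_num
        _ ≤ 2 ^ j := Nat.pow_le_pow_right (by norm_num) (by omega)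
    have h2 := Nat.le_of_dvd (by omega) hz'
    have h3 : 2 ^ j = q + 2 := by rw [pow_succ] at hwle; omega
    have h4 : 2 ^ k < 2 ^ j := by omega
    have h5 : 2 ^ (k + 1) ≤ 2 ^ j := Nat.pow_le_pow_right (by norm_num) ((Nat.pow_lt_pow_iff_right (by norm_num)).1 h4)
    rw [pow_succ] at h5
    omega
  subst hj0
  have hv : (v : ℚ) = q + 1 := by
    have : (v : ℤ) = q + 1 := by rw [← hu]; ring
    exact_mod_cast this
  rw [hv] at hA
  push_cast at hA
  have hqQ : (4 : ℚ) ≤ q := by exact_mod_cast hq4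
  rw [div_le_div_iff₀ (by positivity) (mul_pos (by positivity) (by linarith))] at hA
  nlinarith [mul_pos (show (0 : ℚ) < q by linarith) (show (0 : ℚ) < (q : ℚ) ^ 2 - 1 by nlinarith)]

end CfsgLib.ZGrp
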