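import Mathlib
import Cfsg.Agent.ZGrp.Invol
import Cfsg.Agent.ZGrp.FeitLocal
import Cfsg.Agent.ZGrp.OddDegree

/-!
Fixed-point-free strongly real elements of a simple Zassenhaus group of odd degree.
-/

set_option autoImplicit false

namespace CfsgLib.ZGrp

open MulAction
open scoped Pointwise

variable {G Ω : Type*} [Group G] [Finite G] [MulAction G Ω] [Fintype Ω]

/-- `g` fixes no point. -/
def Fpf (Ω : Type*) [MulAction G Ω] (g : G) : Prop := ∀ c : Ω, g • c ≠ c

/-- `x` is an involution inverting `g`. -/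
def Inverts (g x : G) : Prop := orderOf x = 2 ∧ x * g * x⁻¹ = g⁻¹

/-- Fixed-point-free strongly real elements. -/
def IsRealFpf (Ω : Type*) [MulAction G Ω] (g : G) : Prop := Fpf Ω g ∧ ∃ x, Inverts g x

/-- The order of the centraliser. -/
noncomputable def tor (g : G) : ℕ := Nat.card (Subgroup.centralizer ({g} : Set G))

/-- The index of the centraliser in its normaliser. -/
noncomputable def wgt (g : G) : ℕ :=
  ((Subgroup.centralizer ({g} : Set G)).subgroupOf
    (Subgroup.normalizer ((Subgroup.centralizer ({g} : Set G) : Subgroup G) : Set G))).index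

variable (hZ : Cfsg.IsZassenhausGroup G Ω) [IsSimpleGroup G] {a b : Ω} (hab : a ≠ b)
  (hn : Odd (Fintype.card Ω))

omit [Finite G] [Fintype Ω] [IsSimpleGroup G] in
theorem fpf_ne_one (hab : a ≠ b) {g : G} (hg : Fpf Ω g) : g ≠ 1 := fun h => hg a (by rw [h, one_smul])

include hZ hn in
omit [IsSimpleGroup G] in
theorem odd_of_fpf {g : G} (hg : Fpf Ω g) : Odd (orderOf g) := by
  haveI : Fact (Nat.Prime 2) := ⟨Nat.prime_two⟩
  rw [← Nat.not_even_iff_odd, even_iff_two_dvd]
  intro h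
  have ho : orderOf (g ^ (orderOf g / 2)) = 2 := by
    rw [orderOf_pow_orderOf_div (orderOf_pos g).ne' h]
  obtain ⟨c, hc, hc'⟩ := fixed_unique_of_odd hZ hn ho
  refine hg c (hc' _ ?_)
  rw [smul_smul, ← pow_succ, pow_succ', mul_smul, hc]

include hZ hn in
omit [IsSimpleGroup G] in
theorem fpf_of_commute {g s : G} (hg : Fpf Ω g) (hs : Commute s g) (hs1 : s ≠ 1) : Fpf Ω s := by
  intro c hc
  have h1 : s • g • c = g • c := by rw [smul_smul, hs.eq, mul_smul, hc]
  have h2 : s • g • g • c = g • g • c := by rw [smul_smul, hs.eq, mul_smul, h1]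
  have hne : g • g • c ≠ c := by
    intro e
    obtain ⟨m, hm⟩ := odd_of_fpf hZ hn hg
    refine hg c ?_
    have e1 : ((g * g) ^ m) • c = c := (stabilizer G c).pow_mem (mem_stabilizer_iff.2 (by rw [mul_smul, e])) m
    have e2 : (g * g) ^ m * g = 1 := by rw [← pow_two, ← pow_mul, ← pow_succ, ← hm, pow_orderOf_eq_one]
    have e3 : g⁻¹ • c = c := by rw [← eq_inv_of_mul_eq_one_left e2, e1]
    calc g • c = g • g⁻¹ • c := by rw [e3]
      _ = c := smul_inv_smul _ _
  exact hs1 (eq_one_of_three hZ (hg c).symm (fun e => hg c (MulAction.injective g e).symm) hne.symm hc h1 h2)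

include hZ hn in
theorem inverts_centralizer {g x s : G} (hg : Fpf Ω g) (hx : Inverts g x)
    (hs : s ∈ Subgroup.centralizer ({g} : Set G)) : x * s * x⁻¹ = s⁻¹ := by
  rw [Subgroup.mem_centralizer_singleton_iff] at hs
  obtain ⟨hx2, hxg⟩ := hx
  have hxx : x * x = 1 := by rw [← pow_two, ← hx2, pow_orderOf_eq_one]
  have hxi : x⁻¹ = x := inv_eq_of_mul_eq_one_right hxx
  have hnorm : ∀ u : G, u * g = g * u → (x * u * x⁻¹) * g = g * (x * u * x⁻¹) := by
    intro u hu
    have e : x⁻¹ * g * x = g⁻¹ := by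
      calc x⁻¹ * g * x = x * g * x⁻¹ := by rw [hxi]
        _ = g⁻¹ := hxg
    calc (x * u * x⁻¹) * g = x * (u * (x⁻¹ * g * x)) * x⁻¹ := by group
      _ = x * ((x⁻¹ * g * x) * u) * x⁻¹ := by
        rw [e]
        congr 2
        exact (Commute.inv_right (show Commute u g from hu)).eq
      _ = g * (x * u * x⁻¹) := by group
  set C := Subgroup.centralizer ({g} : Set G)
  have hfix : ∀ u ∈ C, x * u * x⁻¹ = u → u = 1 := by
    intro u hu hxu
    rw [Subgroup.mem_centralizer_singleton_iff] at hu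
    by_contra hu1
    obtain ⟨c, hc, hc'⟩ := fixed_unique_of_odd hZ hn hx2
    refine fpf_of_commute hZ hn hg hu hu1 c (hc' _ ?_)
    have e : x * u = u * x := by
      conv_rhs => rw [← hxu, inv_mul_cancel_right]
    rw [smul_smul, e, mul_smul, hc]
  let f : C → C := fun u => ⟨(u : G)⁻¹ * (x * u * x⁻¹), C.mul_mem (C.inv_mem u.2)
    (Subgroup.mem_centralizer_singleton_iff.2 (hnorm u (Subgroup.mem_centralizer_singleton_iff.1 u.2)))⟩
  have hf : Function.Injective f := by
    intro u v he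
    have he' : (u : G)⁻¹ * (x * u * x⁻¹) = (v : G)⁻¹ * (x * v * x⁻¹) := congrArg Subtype.val he
    have e : x * ((v : G) * (u : G)⁻¹) * x⁻¹ = (v : G) * (u : G)⁻¹ := by
      calc x * ((v : G) * (u : G)⁻¹) * x⁻¹ =
          (v : G) * ((v : G)⁻¹ * (x * v * x⁻¹)) * (x * u * x⁻¹)⁻¹ := by group
        _ = (v : G) * (u : G)⁻¹ := by rw [← he']; group
    exact Subtype.ext (mul_inv_eq_one.1 (hfix _ (C.mul_mem v.2 (C.inv_mem u.2)) e)).symm
  obtain ⟨u, hu⟩ := (Finite.injective_iff_surjective.1 hf) ⟨s, Subgroup.mem_centralizer_singleton_iff.2 hs⟩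
  have hu' : (u : G)⁻¹ * (x * u * x⁻¹) = s := congrArg Subtype.val hu
  rw [← hu']
  calc x * ((u : G)⁻¹ * (x * u * x⁻¹)) * x⁻¹ = (x * (u : G)⁻¹ * x⁻¹) * (x * x * u * (x * x)⁻¹) := by group
    _ = ((u : G)⁻¹ * (x * u * x⁻¹))⁻¹ := by rw [hxx]; group

include hZ hn in
theorem commute_centralizer {g x s v : G} (hg : Fpf Ω g) (hx : Inverts g x)
    (hs : s ∈ Subgroup.centralizer ({g} : Set G)) (hv : v ∈ Subgroup.centralizer ({g} : Set G)) : Commute s v := by
  have h := inverts_centralizer hZ hn hg hx ((Subgroup.centralizer _).mul_mem hs hv)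
  have e : s⁻¹ * v⁻¹ = (s * v)⁻¹ := by
    rw [← h, ← inverts_centralizer hZ hn hg hx hs, ← inverts_centralizer hZ hn hg hx hv]; group
  rw [mul_inv_rev] at e
  exact Commute.inv_inv_iff.1 e

include hZ hn in
theorem realFpf_of_centralizer {g s : G} (hg : IsRealFpf Ω g) (hs : s ∈ Subgroup.centralizer ({g} : Set G))
    (hs1 : s ≠ 1) : IsRealFpf Ω s := by
  obtain ⟨hf, x, hx⟩ := hg
  exact ⟨fpf_of_commute hZ hn hf (Subgroup.mem_centralizer_singleton_iff.1 hs) hs1, x, hx.1,
    inverts_centralizer hZ hn hf hx hs⟩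

include hZ hn in
theorem centralizer_eq {g s : G} (hg : IsRealFpf Ω g) (hs : s ∈ Subgroup.centralizer ({g} : Set G))
    (hs1 : s ≠ 1) : Subgroup.centralizer ({s} : Set G) = Subgroup.centralizer ({g} : Set G) := by
  obtain ⟨hf, x, hx⟩ := hg
  have hgg : g ∈ Subgroup.centralizer ({g} : Set G) := Subgroup.mem_centralizer_singleton_iff.2 rfl
  have hsf := fpf_of_commute hZ hn hf (Subgroup.mem_centralizer_singleton_iff.1 hs) hs1
  have hxs : Inverts s x := ⟨hx.1, inverts_centralizer hZ hn hf hx hs⟩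
  refine le_antisymm (fun u hu => ?_) (fun u hu => Subgroup.mem_centralizer_singleton_iff.2
    (commute_centralizer hZ hn hf hx hu hs).eq)
  exact Subgroup.mem_centralizer_singleton_iff.2 (commute_centralizer hZ hn hsf hxs hu
    (Subgroup.mem_centralizer_singleton_iff.2 (commute_centralizer hZ hn hf hx hgg hs).eq)).eq

include hab in
omit [IsSimpleGroup G] in
theorem one_lt_tor {g : G} (hg : IsRealFpf Ω g) : 1 < tor g :=
  (Subgroup.one_lt_card_iff_ne_bot _).2 fun h => fpf_ne_one hab hg.1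
    ((Subgroup.eq_bot_iff_forall _).1 h g (Subgroup.mem_centralizer_singleton_iff.2 rfl))

include hZ hn in
theorem odd_tor {g : G} (hg : IsRealFpf Ω g) : Odd (tor g) := by
  haveI : Fact (Nat.Prime 2) := ⟨Nat.prime_two⟩
  rw [← Nat.not_even_iff_odd, even_iff_two_dvd]
  intro h
  obtain ⟨s, hs⟩ := exists_prime_orderOf_dvd_card' (G := Subgroup.centralizer ({g} : Set G)) 2 h
  rw [← Subgroup.orderOf_coe] at hs
  have hs1 : (s : G) ≠ 1 := fun e => by rw [e, orderOf_one] at hs; omega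
  have ho := odd_of_fpf hZ hn (realFpf_of_centralizer hZ hn hg s.2 hs1).1
  rw [hs] at ho
  exact absurd ho (by decide)

include hZ hn in
theorem tor_dvd_degree {g : G} (hg : IsRealFpf Ω g) : tor g ∣ Fintype.card Ω := by
  rw [← Nat.card_eq_fintype_card]
  have hfree : ∀ c : Ω, MulAction.stabilizer (Subgroup.centralizer ({g} : Set G)) c = ⊥ := by
    intro c
    rw [Subgroup.eq_bot_iff_forall]
    intro s hs
    by_contra h
    exact (realFpf_of_centralizer hZ hn hg s.2 (fun e => h (Subtype.ext e))).1 c (mem_stabilizer_iff.1 hs)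
  rw [Nat.card_congr (MulAction.selfEquivSigmaOrbitsQuotientStabilizer (Subgroup.centralizer ({g} : Set G)) Ω)]
  haveI := Fintype.ofFinite (Quotient (MulAction.orbitRel (Subgroup.centralizer ({g} : Set G)) Ω))
  rw [Nat.card_sigma]
  refine Finset.dvd_sum fun w _ => ?_
  rw [← Subgroup.index_eq_card, hfree, Subgroup.index_bot]
  exact dvd_rfl

omit [Finite G] [Fintype Ω] [IsSimpleGroup G] in
theorem centralizer_conj (r g : G) {u : G} :
    u ∈ Subgroup.centralizer ({r * g * r⁻¹} : Set G) ↔ r⁻¹ * u * r ∈ Subgroup.centralizer ({g} : Set G) := by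
  rw [Subgroup.mem_centralizer_singleton_iff, Subgroup.mem_centralizer_singleton_iff]
  constructor
  · intro h
    calc r⁻¹ * u * r * g = r⁻¹ * (u * (r * g * r⁻¹)) * r := by group
      _ = g * (r⁻¹ * u * r) := by rw [h]; group
  · intro h
    calc u * (r * g * r⁻¹) = r * ((r⁻¹ * u * r) * g) * r⁻¹ := by group
      _ = r * g * r⁻¹ * u := by rw [h]; group

omit [Fintype Ω] [IsSimpleGroup G] in
theorem tor_conj (r g : G) : tor (r * g * r⁻¹) = tor g := by
  refine Nat.card_congr ((MulAut.conj r).symm.toEquiv.subtypeEquiv fun u => ?_)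
  exact centralizer_conj r g

omit [Finite G] [Fintype Ω] [IsSimpleGroup G] in
theorem isRealFpf_conj {g : G} (r : G) (hg : IsRealFpf Ω g) : IsRealFpf Ω (r * g * r⁻¹) := by
  obtain ⟨hf, x, hx2, hxg⟩ := hg
  refine ⟨fun c hc => hf (r⁻¹ • c) (conj_smul_eq_iff.1 hc), r * x * r⁻¹, ?_, ?_⟩
  · rw [← MulAut.conj_apply, MulEquiv.orderOf_eq, hx2]
  · calc r * x * r⁻¹ * (r * g * r⁻¹) * (r * x * r⁻¹)⁻¹ = r * (x * g * x⁻¹) * r⁻¹ := by group
      _ = (r * g * r⁻¹)⁻¹ := by rw [hxg]; group

include hZ hn in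
/-- Tori whose orders have a common prime are conjugate. -/
theorem conj_of_prime {p : ℕ} (hp : p.Prime) {g g' : G} (hg : IsRealFpf Ω g) (hg' : IsRealFpf Ω g')
    (hpg : p ∣ tor g) (hpg' : p ∣ tor g') :
    ∃ r : G, Subgroup.centralizer ({r * g * r⁻¹} : Set G) = Subgroup.centralizer ({g'} : Set G) := by
  haveI := Fact.mk hp
  let P : Sylow p G := default
  haveI : Nontrivial (P : Subgroup G) :=
    (Subgroup.nontrivial_iff_ne_bot _).2 (P.ne_bot_of_dvd_card (hpg.trans (Subgroup.card_subgroup_dvd_card _)))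
  haveI := P.2.center_nontrivial
  obtain ⟨z, hz⟩ := exists_ne (1 : Subgroup.center (P : Subgroup G))
  set z' : G := ((z : (P : Subgroup G)) : G)
  have hz1 : z' ≠ 1 := fun e => hz (Subtype.ext (Subtype.ext e))
  have main : ∀ h : G, IsRealFpf Ω h → p ∣ tor h →
      ∃ r : G, Subgroup.centralizer ({r * h * r⁻¹} : Set G) = Subgroup.centralizer ({z'} : Set G) := by
    intro h hh hd
    obtain ⟨v, hv⟩ := exists_prime_orderOf_dvd_card' (G := Subgroup.centralizer ({h} : Set G)) p hd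
    rw [← Subgroup.orderOf_coe] at hv
    have hv1 : (v : G) ≠ 1 := fun e => by rw [e, orderOf_one] at hv; exact hp.one_lt.ne hv
    have hvP : IsPGroup p (Subgroup.zpowers (v : G)) := IsPGroup.of_card (n := 1) (by rw [Nat.card_zpowers, hv, pow_one])
    obtain ⟨Q, hQ⟩ := hvP.exists_le_sylow
    obtain ⟨r, hr⟩ := exists_smul_eq G Q P
    have hrv : r * v * r⁻¹ ∈ (P : Subgroup G) := by
      rw [← hr]
      exact Subgroup.smul_mem_pointwise_smul (v : G) (MulAut.conj r) _ (hQ (Subgroup.mem_zpowers _))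
    refine ⟨r, ?_⟩
    have hh' := isRealFpf_conj r hh
    have hv' : r * v * r⁻¹ ∈ Subgroup.centralizer ({r * h * r⁻¹} : Set G) := by
      rw [centralizer_conj]
      simpa [mul_assoc] using v.2
    have hv'1 : r * v * r⁻¹ ≠ 1 := fun e => hv1 (conj_eq_one_iff.1 e)
    have hzc : z' ∈ Subgroup.centralizer ({r * h * r⁻¹} : Set G) := by
      rw [← centralizer_eq hZ hn hh' hv' hv'1, Subgroup.mem_centralizer_singleton_iff]
      exact (congrArg Subtype.val (Subgroup.mem_center_iff.1 z.2 ⟨_, hrv⟩)).symm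
    exact (centralizer_eq hZ hn hh' hzc hz1).symm
  obtain ⟨r, hr⟩ := main g hg hpg
  obtain ⟨r', hr'⟩ := main g' hg' hpg'
  refine ⟨r'⁻¹ * r, ?_⟩
  ext u
  rw [centralizer_conj]
  have h1 := Subgroup.ext_iff.1 (hr.trans hr'.symm) (r' * u * r'⁻¹)
  rw [centralizer_conj, centralizer_conj] at h1
  simpa [mul_assoc] using h1

end CfsgLib.ZGrp
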