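import Mathlib
import Cfsg.Agent.ZGrp.SuzTori
import Cfsg.Agent.ZGrp.Counts

/-!
Counting fixed-point-free strongly real elements.
-/

set_option autoImplicit false

namespace CfsgLib.ZGrp

open MulAction
open scoped Pointwise

variable {G Ω : Type*} [Group G] [Finite G] [MulAction G Ω] [Fintype Ω]
variable (hZ : Cfsg.IsZassenhausGroup G Ω) [IsSimpleGroup G] {a b : Ω} (hab : a ≠ b)
  (hn : Odd (Fintype.card Ω))

/-- The stabiliser in `C(x)` of the torus of `g`. -/
noncomputable def tW (g x : G) : Subgroup G :=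
  Subgroup.normalizer ((Subgroup.centralizer ({g} : Set G) : Subgroup G) : Set G) ⊓ Subgroup.centralizer ({x} : Set G)

omit [Finite G] [Fintype Ω] [IsSimpleGroup G] in
theorem sq_involution {x : G} (hx : orderOf x = 2) : x * x = 1 := by rw [← pow_two, ← hx, pow_orderOf_eq_one]

omit [Finite G] [Fintype Ω] [IsSimpleGroup G] in
theorem ne_one_involution {x : G} (hx : orderOf x = 2) : x ≠ 1 := fun e => by rw [e, orderOf_one] at hx; omega

include hZ hab hn in
theorem card_inverters {g : G} (hg : IsRealFpf Ω g) : Nat.card {x : G // Inverts g x} = tor g := by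
  obtain ⟨hf, x₀, hx₀⟩ := hg
  refine (Nat.card_congr ((Equiv.mulLeft x₀).subtypeEquiv fun c => ?_)).symm
  show c ∈ Subgroup.centralizer ({g} : Set G) ↔ Inverts g (x₀ * c)
  constructor
  · intro hc
    have e : x₀ * c * g * (x₀ * c)⁻¹ = g⁻¹ := by
      rw [Subgroup.mem_centralizer_singleton_iff] at hc
      calc x₀ * c * g * (x₀ * c)⁻¹ = x₀ * (c * g) * c⁻¹ * x₀⁻¹ := by group
        _ = x₀ * g * x₀⁻¹ := by rw [hc]; group
        _ = g⁻¹ := hx₀.2
    refine ⟨orderOf_eq_prime ?_ fun e1 => fpf_ne_one hab hf ?_, e⟩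
    · rw [pow_two]
      have h := inverts_centralizer hZ hn hf hx₀ hc
      calc x₀ * c * (x₀ * c) = (x₀ * c * x₀⁻¹) * (x₀ * x₀) * c := by group
        _ = 1 := by rw [h, sq_involution hx₀.1]; group
    · rw [e1, one_mul, inv_one, mul_one] at e
      have h2 : g * g = 1 := eq_inv_iff_mul_eq_one.1 e
      obtain ⟨m, hm⟩ := odd_of_fpf hZ hn hf
      have : g ^ (2 * m + 1) = g := by rw [pow_succ, pow_mul, pow_two, h2, one_pow, one_mul]
      rw [← hm, pow_orderOf_eq_one] at this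
      exact this.symm
  · rintro ⟨-, e⟩
    rw [Subgroup.mem_centralizer_singleton_iff]
    have h1 : x₀ * c * g * (x₀ * c)⁻¹ = x₀ * g * x₀⁻¹ := e.trans hx₀.2.symm
    calc c * g = x₀⁻¹ * (x₀ * c * g * (x₀ * c)⁻¹) * x₀ * c := by group
      _ = g * c := by rw [h1]; group

include hZ hab hn in
theorem wgt_eq {g x : G} (hg : IsRealFpf Ω g) (hx : Inverts g x) :
    wgt g = Nat.card (tW g x) ∧
      Nat.card (Subgroup.normalizer ((Subgroup.centralizer ({g} : Set G) : Subgroup G) : Set G)) = tor g * wgt g := by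
  set T := Subgroup.centralizer ({g} : Set G) with hT
  set N := Subgroup.normalizer (T : Set G) with hN
  have hgT : g ∈ T := Subgroup.mem_centralizer_singleton_iff.2 rfl
  have hxT : ∀ s ∈ T, x * s * x⁻¹ = s⁻¹ := fun s hs => inverts_centralizer hZ hn hg.1 hx hs
  have hxx := sq_involution hx.1
  let f : T × tW g x → N := fun p => ⟨(p.1 : G) * p.2, N.mul_mem (Subgroup.le_normalizer p.1.2) p.2.2.1⟩
  have hinj : Function.Injective f := by
    rintro ⟨s, k⟩ ⟨s', k'⟩ he
    have he' : (s : G) * k = (s' : G) * k' := congrArg Subtype.val he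
    have hd : (s' : G)⁻¹ * s = (k' : G) * (k : G)⁻¹ := by
      calc (s' : G)⁻¹ * s = (s' : G)⁻¹ * ((s : G) * k) * (k : G)⁻¹ := by group
        _ = _ := by rw [he']; group
    have h1 : (s' : G)⁻¹ * s = 1 := by
      by_contra h1
      have hmem := T.mul_mem (T.inv_mem s'.2) s.2
      have hc : (s' : G)⁻¹ * s ∈ Subgroup.centralizer ({x} : Set G) := by
        rw [hd]; exact Subgroup.mul_mem _ k'.2.2 (Subgroup.inv_mem _ k.2.2)
      rw [Subgroup.mem_centralizer_singleton_iff] at hc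
      have h2 : ((s' : G)⁻¹ * s)⁻¹ = (s' : G)⁻¹ * s := by
        rw [← hxT _ hmem, mul_inv_eq_iff_eq_mul, hc]
      obtain ⟨m, hm⟩ := odd_of_fpf hZ hn (realFpf_of_centralizer hZ hn hg hmem h1).1
      have h3 := inv_eq_iff_mul_eq_one.1 h2
      have : ((s' : G)⁻¹ * s) ^ (2 * m + 1) = (s' : G)⁻¹ * s := by rw [pow_succ, pow_mul, pow_two, h3, one_pow, one_mul]
      rw [← hm, pow_orderOf_eq_one] at this
      exact h1 this.symm
    exact Prod.ext (Subtype.ext (inv_mul_eq_one.1 h1).symm)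
      (Subtype.ext (mul_inv_eq_one.1 (hd.symm.trans h1)).symm)
  have hsurj : Function.Surjective f := by
    rintro ⟨u, hu⟩
    -- `u x u⁻¹ x` centralises `g`
    have hu' : u⁻¹ * g * u ∈ T := by
      have := (Subgroup.mem_normalizer_iff.1 (N.inv_mem hu) g).1 hgT
      simpa using this
    have hs : u * x * u⁻¹ * x ∈ T := by
      rw [hT, Subgroup.mem_centralizer_singleton_iff]
      have e1 : x * g = g⁻¹ * x := by rw [← hx.2, inv_mul_cancel_right]
      have e2 : x * (u⁻¹ * g * u)⁻¹ = (u⁻¹ * g * u) * x := by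
        have := hxT _ (T.inv_mem hu')
        rw [inv_inv] at this
        calc x * (u⁻¹ * g * u)⁻¹ = (x * (u⁻¹ * g * u)⁻¹ * x⁻¹) * x := by group
          _ = (u⁻¹ * g * u) * x := by rw [this]
      calc u * x * u⁻¹ * x * g = u * x * u⁻¹ * (x * g) := by group
        _ = u * (x * (u⁻¹ * g * u)⁻¹) * u⁻¹ * x := by rw [e1]; group
        _ = g * (u * x * u⁻¹ * x) := by rw [e2]; group
    obtain ⟨m, hm⟩ : Odd (orderOf (u * x * u⁻¹ * x)) :=
      (odd_tor hZ hn hg).of_dvd_nat (Subgroup.orderOf_dvd_natCard _ hs)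
    set r := (u * x * u⁻¹ * x) ^ (m + 1) with hr
    have hrT : r ∈ T := T.pow_mem hs _
    have hr2 : r * r = u * x * u⁻¹ * x := by
      rw [hr, ← pow_add, show m + 1 + (m + 1) = orderOf (u * x * u⁻¹ * x) + 1 by omega, pow_succ, pow_orderOf_eq_one, one_mul]
    have hux : u * x = r * x * r⁻¹ * u := by
      have e := hxT r hrT
      calc u * x = (u * x * u⁻¹ * x) * x⁻¹ * u := by group
        _ = r * r * x * u := by rw [← hr2, inv_eq_of_mul_eq_one_right hxx]
        _ = r * (r⁻¹)⁻¹ * x * u := by rw [inv_inv]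
        _ = r * x * r⁻¹ * u := by rw [← hxT _ (T.inv_mem hrT)]; group
    have hk : r⁻¹ * u ∈ tW g x := by
      refine Subgroup.mem_inf.2 ⟨N.mul_mem (N.inv_mem (Subgroup.le_normalizer hrT)) hu, ?_⟩
      rw [Subgroup.mem_centralizer_singleton_iff]
      calc r⁻¹ * u * x = r⁻¹ * (u * x) := by group
        _ = x * (r⁻¹ * u) := by rw [hux]; group
    exact ⟨(⟨r, hrT⟩, ⟨_, hk⟩), Subtype.ext (mul_inv_cancel_left r u)⟩
  have hcard : Nat.card N = tor g * Nat.card (tW g x) := by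
    rw [← Nat.card_eq_of_bijective f ⟨hinj, hsurj⟩, Nat.card_prod]; rfl
  have hw : tor g * wgt g = Nat.card N := by
    rw [wgt, ← hT, tor, ← hT, ← Subgroup.card_mul_index (T.subgroupOf N)]
    congr 1
    exact (Nat.card_congr (Subgroup.subgroupOfEquivOfLe Subgroup.le_normalizer).toEquiv).symm
  exact ⟨Nat.eq_of_mul_eq_mul_left (Nat.card_pos (α := T)) (hw.trans hcard), hw.symm⟩

include hZ hn in
theorem inverts_of_mem_tW {g x k : G} (hg : IsRealFpf Ω g) (hk : k ∈ tW g x) (hk2 : orderOf k = 2) :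
    Inverts g k := by
  set T := Subgroup.centralizer ({g} : Set G) with hT
  have hgT : g ∈ T := Subgroup.mem_centralizer_singleton_iff.2 rfl
  have hN := Subgroup.mem_normalizer_iff.1 hk.1
  have hfix : ∀ u ∈ T, k * u * k⁻¹ = u → u = 1 := by
    intro u hu hku
    by_contra hu1
    obtain ⟨c, hc, hc'⟩ := fixed_unique_of_odd hZ hn hk2
    refine fpf_of_commute hZ hn hg.1 (Subgroup.mem_centralizer_singleton_iff.1 hu) hu1 c (hc' _ ?_)
    have e : k * u = u * k := by
      conv_rhs => rw [← hku, inv_mul_cancel_right]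
    rw [smul_smul, e, mul_smul, hc]
  let f : T → T := fun u => ⟨(u : G)⁻¹ * (k * u * k⁻¹), T.mul_mem (T.inv_mem u.2) ((hN u).1 u.2)⟩
  have hf : Function.Injective f := by
    intro u v he
    have he' : (u : G)⁻¹ * (k * u * k⁻¹) = (v : G)⁻¹ * (k * v * k⁻¹) := congrArg Subtype.val he
    have e : k * ((v : G) * (u : G)⁻¹) * k⁻¹ = (v : G) * (u : G)⁻¹ := by
      calc k * ((v : G) * (u : G)⁻¹) * k⁻¹ =
          (v : G) * ((v : G)⁻¹ * (k * v * k⁻¹)) * (k * u * k⁻¹)⁻¹ := by group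
        _ = (v : G) * (u : G)⁻¹ := by rw [← he']; group
    exact Subtype.ext (mul_inv_eq_one.1 (hfix _ (T.mul_mem v.2 (T.inv_mem u.2)) e)).symm
  obtain ⟨u, hu⟩ := (Finite.injective_iff_surjective.1 hf) ⟨g, hgT⟩
  have hu' : (u : G)⁻¹ * (k * u * k⁻¹) = g := congrArg Subtype.val hu
  refine ⟨hk2, ?_⟩
  rw [← hu']
  calc k * ((u : G)⁻¹ * (k * u * k⁻¹)) * k⁻¹ = (k * (u : G)⁻¹ * k⁻¹) * (k * k * u * (k * k)⁻¹) := by group
    _ = ((u : G)⁻¹ * (k * u * k⁻¹))⁻¹ := by rw [sq_involution hk2]; group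

include hZ hab hn in
theorem unique_involution_tW {g x k : G} (hg : IsRealFpf Ω g) (hx : Inverts g x) (hk : k ∈ tW g x)
    (hk2 : orderOf k = 2) : k = x := by
  have h := inverts_of_mem_tW hZ hn hg hk hk2
  obtain ⟨hf, x₀, hx₀⟩ := hg
  have hxi : x⁻¹ = x := inv_eq_of_mul_eq_one_right (sq_involution hx.1)
  have h' : x * g⁻¹ * x⁻¹ = g := by
    rw [show x * g⁻¹ * x⁻¹ = (x * g * x⁻¹)⁻¹ by group, hx.2, inv_inv]
  have hc : x * k ∈ Subgroup.centralizer ({g} : Set G) := by
    rw [Subgroup.mem_centralizer_singleton_iff]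
    calc x * k * g = x * (k * g * k⁻¹) * k := by group
      _ = (x * g⁻¹ * x⁻¹) * x * k := by rw [h.2]; group
      _ = g * (x * k) := by rw [h']; group
  have hkx := Subgroup.mem_centralizer_singleton_iff.1 hk.2
  have e := inverts_centralizer hZ hn hf hx hc
  have e2 : x * (x * k) * x⁻¹ = x * k := by rw [show x * (x * k) * x⁻¹ = x * (x * k * x⁻¹) by group, mul_assoc x k x⁻¹, hxi, hkx, ← mul_assoc x x k, sq_involution hx.1, one_mul]
  rw [e2] at e
  by_contra hne
  have hs1 : x * k ≠ 1 := fun e1 => hne (by rw [eq_inv_of_mul_eq_one_right e1, hxi])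
  obtain ⟨m, hm⟩ := odd_of_fpf hZ hn (fpf_of_commute hZ hn hf (Subgroup.mem_centralizer_singleton_iff.1 hc) hs1)
  have h3 := eq_inv_iff_mul_eq_one.1 e
  have : (x * k) ^ (2 * m + 1) = x * k := by rw [pow_succ, pow_mul, pow_two, h3, one_pow, one_mul]
  rw [← hm, pow_orderOf_eq_one] at this
  exact hs1 this.symm

include hZ hab hn in
theorem wgt_dvd {g : G} (hg : IsRealFpf Ω g) : wgt g ∣ tor g - 1 := by
  classical
  obtain ⟨x, hx⟩ := hg.2
  rw [(wgt_eq hZ hab hn hg hx).1]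
  set T := Subgroup.centralizer ({g} : Set G) with hT
  set K := tW g x with hK
  letI : MulAction K {s : T // s ≠ 1} :=
    { smul := fun k s => ⟨⟨(k : G) * s.1 * (k : G)⁻¹, (Subgroup.mem_normalizer_iff.1 k.2.1 _).1 s.1.2⟩,
        fun e => s.2 (Subtype.ext (conj_eq_one_iff.1 (congrArg Subtype.val e)))⟩
      one_smul := fun s => Subtype.ext (Subtype.ext (by
        show ((1 : K) : G) * (s.1 : G) * ((1 : K) : G)⁻¹ = s.1
        simp))
      mul_smul := fun k l s => Subtype.ext (Subtype.ext (by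
        show ((k * l : K) : G) * (s.1 : G) * ((k * l : K) : G)⁻¹ = (k : G) * ((l : G) * s.1 * (l : G)⁻¹) * (k : G)⁻¹
        rw [Subgroup.coe_mul]; group)) }
  have hfree : ∀ s : {s : T // s ≠ 1}, MulAction.stabilizer K s = ⊥ := by
    intro s
    rw [Subgroup.eq_bot_iff_forall]
    intro k hk
    have hk' : (k : G) * s.1 * (k : G)⁻¹ = s.1 := congrArg (fun z : {s : T // s ≠ 1} => ((z.1 : T) : G)) hk
    have hs1 : (s.1 : G) ≠ 1 := fun e => s.2 (Subtype.ext e)
    have hkT : (k : G) ∈ T := by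
      rw [hT, ← centralizer_eq hZ hn hg s.1.2 hs1, Subgroup.mem_centralizer_singleton_iff]
      exact mul_inv_eq_iff_eq_mul.1 hk'
    by_contra h1
    have hk1 : (k : G) ≠ 1 := fun e => h1 (Subtype.ext e)
    have e := inverts_centralizer hZ hn hg.1 hx hkT
    rw [← Subgroup.mem_centralizer_singleton_iff.1 k.2.2, mul_inv_cancel_right] at e
    obtain ⟨m, hm⟩ := odd_of_fpf hZ hn (realFpf_of_centralizer hZ hn hg hkT hk1).1
    have h3 := eq_inv_iff_mul_eq_one.1 e
    have : (k : G) ^ (2 * m + 1) = k := by rw [pow_succ, pow_mul, pow_two, h3, one_pow, one_mul]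
    rw [← hm, pow_orderOf_eq_one] at this
    exact hk1 this.symm
  haveI := Fintype.ofFinite T
  have hcard : Nat.card {s : T // s ≠ 1} = tor g - 1 := by
    rw [Nat.card_eq_fintype_card, Fintype.card_subtype_compl, Fintype.card_subtype_eq, ← Nat.card_eq_fintype_card]
    rfl
  rw [← hcard, Nat.card_congr (MulAction.selfEquivSigmaOrbitsQuotientStabilizer K {s : T // s ≠ 1})]
  haveI := Fintype.ofFinite (Quotient (MulAction.orbitRel K {s : T // s ≠ 1}))
  rw [Nat.card_sigma]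
  refine Finset.dvd_sum fun w _ => ?_
  rw [← Subgroup.index_eq_card, hfree, Subgroup.index_bot]

include hZ hab hn in
/-- The conjugates of a torus cover the elements with the same centraliser order. -/
theorem card_class_mul {g : G} (hg : IsRealFpf Ω g) :
    Nat.card {u : G // IsRealFpf Ω u ∧ tor u = tor g} * (tor g * wgt g) = (tor g - 1) * Nat.card G := by
  classical
  obtain ⟨x, hx⟩ := hg.2
  set T := Subgroup.centralizer ({g} : Set G) with hT
  rw [← (wgt_eq hZ hab hn hg hx).2]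
  set N := Subgroup.normalizer (T : Set G) with hN
  have hTn : ∀ s ∈ T, s ≠ 1 → ∀ r : G, IsRealFpf Ω (r * s * r⁻¹) ∧ tor (r * s * r⁻¹) = tor g := fun s hs hs1 r =>
    ⟨isRealFpf_conj r (realFpf_of_centralizer hZ hn hg hs hs1), by
      rw [tor_conj, tor, centralizer_eq hZ hn hg hs hs1]; rfl⟩
  let f : G × {s : T // s ≠ 1} → {u : G // IsRealFpf Ω u ∧ tor u = tor g} := fun p =>
    ⟨p.1 * p.2.1 * p.1⁻¹, hTn _ p.2.1.2 (fun e => p.2.2 (Subtype.ext e)) p.1⟩
  have hfib : ∀ u : {u : G // IsRealFpf Ω u ∧ tor u = tor g}, Nat.card {p // f p = u} = Nat.card N := by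
    rintro ⟨u, hu, hut⟩
    obtain ⟨p, hp, hpd⟩ := Nat.exists_prime_and_dvd (n := tor g) (by have := one_lt_tor hab hg; omega)
    obtain ⟨r₀, hr₀⟩ := conj_of_prime hZ hn hp hg hu hpd (hut ▸ hpd)
    have hs₀ : r₀⁻¹ * u * r₀ ∈ T := by
      rw [hT, ← centralizer_conj, hr₀]
      exact Subgroup.mem_centralizer_singleton_iff.2 rfl
    have hs₀1 : r₀⁻¹ * u * r₀ ≠ 1 := fun e => fpf_ne_one hab hu.1 (by
      rwa [mul_assoc, inv_mul_eq_one, eq_comm, mul_eq_right] at e)
    refine (Nat.card_congr (Equiv.ofBijective (fun n : N => (⟨(r₀ * (n : G)⁻¹,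
        ⟨⟨(n : G) * (r₀⁻¹ * u * r₀) * (n : G)⁻¹, (Subgroup.mem_normalizer_iff.1 n.2 _).1 hs₀⟩,
          fun e => hs₀1 (conj_eq_one_iff.1 (congrArg Subtype.val e))⟩), Subtype.ext (by
            show r₀ * (n : G)⁻¹ * ((n : G) * (r₀⁻¹ * u * r₀) * (n : G)⁻¹) * (r₀ * (n : G)⁻¹)⁻¹ = u
            group)⟩ : {p // f p = ⟨u, hu, hut⟩})) ⟨?_, ?_⟩)).symm
    · intro n m he
      have := congrArg (fun z : {p // f p = ⟨u, hu, hut⟩} => z.1.1) he
      exact Subtype.ext (inv_injective (mul_left_cancel this))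
    · rintro ⟨⟨r, s⟩, hrs⟩
      have hrs' : r * s.1 * r⁻¹ = u := congrArg Subtype.val hrs
      have hs1 : (s.1 : G) ≠ 1 := fun e => s.2 (Subtype.ext e)
      have hmem : r⁻¹ * r₀ ∈ N := by
        refine Subgroup.mem_normalizer_iff.2 fun z => ?_
        have h1 : Subgroup.centralizer ({r * s.1 * r⁻¹} : Set G) = Subgroup.centralizer ({r₀ * g * r₀⁻¹} : Set G) := by
          rw [hrs', hr₀]
        have h2 := Subgroup.ext_iff.1 h1 (r₀ * z * r₀⁻¹)
        rw [centralizer_conj, centralizer_conj, centralizer_eq hZ hn hg s.1.2 hs1] at h2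
        rw [show r₀⁻¹ * (r₀ * z * r₀⁻¹) * r₀ = z by group] at h2
        rw [← h2]
        simp [hT, mul_assoc]
      refine ⟨⟨r⁻¹ * r₀, hmem⟩, Subtype.ext (Prod.ext ?_ (Subtype.ext (Subtype.ext ?_)))⟩
      · show r₀ * (r⁻¹ * r₀)⁻¹ = r
        group
      · show r⁻¹ * r₀ * (r₀⁻¹ * u * r₀) * (r⁻¹ * r₀)⁻¹ = s.1
        rw [← hrs']; group
  have hc := Nat.card_congr (Equiv.sigmaFiberEquiv f)
  haveI := Fintype.ofFinite {u : G // IsRealFpf Ω u ∧ tor u = tor g}
  rw [Nat.card_sigma, Finset.sum_congr rfl (fun u _ => hfib u), Finset.sum_const, smul_eq_mul, Finset.card_univ,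
    ← Nat.card_eq_fintype_card, Nat.card_prod] at hc
  haveI := Fintype.ofFinite T
  rw [hc, Nat.card_eq_fintype_card (α := {s : T // s ≠ 1}), Fintype.card_subtype_compl, Fintype.card_subtype_eq,
    ← Nat.card_eq_fintype_card (α := T), mul_comm (tor g - 1)]
  rfl

end CfsgLib.ZGrp
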