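import Mathlib
import Cfsg.Agent.ZGrp.SuzCount
import Cfsg.Agent.ZGrp.Real
import Cfsg.Agent.Zas.Kernel

/-!
Pairs of involutions with fixed-point-free product.
-/

set_option autoImplicit false

namespace CfsgLib.ZGrp

open MulAction
open scoped Pointwise

variable {G Ω : Type*} [Group G] [Finite G] [MulAction G Ω] [Fintype Ω]
variable (hZ : Cfsg.IsZassenhausGroup G Ω) [IsSimpleGroup G] {a b : Ω} (hab : a ≠ b)
  (hn : Odd (Fintype.card Ω))

include hZ hab hn in
/-- The involutions taking `c` to `d`, for any two points. -/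
theorem card_involutions_map (c d : Ω) :
    Nat.card {y : G // orderOf y = 2 ∧ y • c = d} = Nat.card (pst G a b) := by
  have hodd := odd_pst_of_odd_degree hZ hn hab
  by_cases h : c = d
  · subst h; exact card_involutions_fixing hZ hab hodd hn c
  · exact card_swaps hZ hab hodd h

include hZ hab hn in
theorem two_mul_pairs [Fintype G] [DecidablePred (IsRealFpf Ω : G → Prop)] :
    2 * ∑ g ∈ (Finset.univ : Finset G).filter (IsRealFpf Ω), tor g = Nat.card G * (Nat.card (pst G a b) + 1) := by
  classical
  have hodd := odd_pst_of_odd_degree hZ hn hab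
  set I := Finset.univ.filter fun x : G => orderOf x = 2 with hI
  set e := Nat.card (pst G a b) with he
  set N := Fintype.card Ω with hN
  have hN4 : 4 ≤ N := four_le_card hZ hab
  have hIc : I.card = N * e := by
    have := card_involutions hZ hab hodd
    rw [if_pos hn, Nat.card_eq_fintype_card, Fintype.card_subtype] at this
    exact this
  have hfix1 : ∀ x ∈ I, ∃ c : Ω, x • c = c ∧ ∀ d : Ω, x • d = d → d = c := fun x hx =>
    fixed_unique_of_odd hZ hn (Finset.mem_filter.1 hx).2
  have key : ∀ x ∈ I, ∀ y ∈ I, (Finset.univ.filter fun c : Ω => (x * y) • c = c).card +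
      2 * (if Fpf Ω (x * y) then 1 else 0) + (if ∃ c : Ω, x • c = c ∧ y • c = c then 1 else 0) =
      2 + (if x = y then N - 1 else 0) := by
    intro x hx y hy
    obtain ⟨cx, hcx, hcx'⟩ := hfix1 x hx
    have hx2 := (Finset.mem_filter.1 hx).2
    have hy2 := (Finset.mem_filter.1 hy).2
    have hxx := sq_involution hx2
    by_cases hxy : x = y
    · subst hxy
      rw [if_pos rfl, if_pos (show ∃ c : Ω, x • c = c ∧ x • c = c from ⟨cx, hcx, hcx⟩), if_neg (fun h => h cx (by rw [hxx, one_smul]))]
      have : (Finset.univ.filter fun c : Ω => (x * x) • c = c) = Finset.univ := by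
        rw [hxx]; ext c; simp
      rw [this, Finset.card_univ]
      omega
    rw [if_neg hxy]
    have hne1 : x * y ≠ 1 := fun h => hxy (by
      rw [eq_inv_of_mul_eq_one_right h, inv_eq_of_mul_eq_one_right hxx])
    have hle : (Finset.univ.filter fun c : Ω => (x * y) • c = c).card ≤ 2 := by
      have := card_fixedBy_le_two (Ω := Ω) hZ hne1
      rw [Nat.card_eq_fintype_card] at this
      simpa [Fintype.card_subtype, mem_fixedBy] using this
    by_cases hs : ∃ c : Ω, x • c = c ∧ y • c = c
    · obtain ⟨c, hxc, hyc⟩ := hs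
      have hxyc : (x * y) • c = c := by rw [mul_smul, hyc, hxc]
      rw [if_neg (show ¬ Fpf Ω (x * y) from fun h => h c hxyc), if_pos (show ∃ c : Ω, x • c = c ∧ y • c = c from ⟨c, hxc, hyc⟩)]
      obtain ⟨b', hb'⟩ : ∃ b', c ≠ b' := by
        by_cases h : c = a
        · exact ⟨b, h ▸ hab⟩
        · exact ⟨a, h⟩
      have hcomm : Commute x y := by
        obtain ⟨F, hFle, hFn, hreg⟩ := CfsgLib.Zas.exists_kernel hZ hb'
        have hFfix : ∀ u ∈ F, u ≠ 1 → ∀ d : Ω, u • d = d → d = c := fun u hu hu1 d hd => by
          by_contra hdc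
          obtain ⟨v, -, hv⟩ := hreg d d hdc hdc
          exact hu1 (congrArg Subtype.val ((hv ⟨u, hu⟩ hd).trans (hv 1 (one_smul _ _)).symm))
        have hFcard : Nat.card F + 1 = Fintype.card Ω := by
          have hne : ∀ u : F, (u : G) • b' ≠ c := fun u h => hb' (MulAction.injective (u : G)
            ((mem_stabilizer_iff.1 (hFle u.2)).trans h.symm))
          have hbij : Function.Bijective fun u : F => (⟨(u : G) • b', hne u⟩ : {d : Ω // d ≠ c}) := by
            refine ⟨fun u v h => ?_, fun d => ?_⟩
            · obtain ⟨w, -, hw⟩ := hreg b' ((u : G) • b') hb'.symm (hne u)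
              exact (hw u rfl).trans (hw v (congrArg Subtype.val h).symm).symm
            · obtain ⟨w, hw, -⟩ := hreg b' d hb'.symm d.2
              exact ⟨w, Subtype.ext hw⟩
          rw [Nat.card_eq_of_bijective _ hbij, Nat.card_eq_fintype_card, Fintype.card_subtype_compl, Fintype.card_subtype_eq]
          omega
        exact commute_involutions_fixing hZ hb' (odd_pst_of_odd_degree hZ hn hb') F hFle hFcard hFfix hn hx2 hy2 hxc hyc
      have ho : orderOf (x * y) = 2 := orderOf_eq_prime (by rw [hcomm.mul_pow, pow_two, pow_two, hxx, sq_involution hy2, one_mul]) hne1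
      have : (Finset.univ.filter fun d : Ω => (x * y) • d = d) = {c} := by
        ext d
        simp only [Finset.mem_filter, Finset.mem_univ, true_and, Finset.mem_singleton]
        exact ⟨fun h => eq_of_fixed_involution hZ hab hodd ho h hxyc, fun h => h ▸ hxyc⟩
      rw [this, Finset.card_singleton]
    · rw [if_neg hs]
      by_cases hf : Fpf Ω (x * y)
      · rw [if_pos hf, Finset.filter_eq_empty_iff.2 (fun {c} _ => hf c), Finset.card_empty]
      · rw [if_neg hf]
        rw [Fpf] at hf
        push Not at hf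
        obtain ⟨c, hc⟩ := hf
        have hne : y • c ≠ c := fun h => hs ⟨c, by rw [mul_smul, h] at hc; exact hc, h⟩
        have hc2 : (x * y) • y • c = y • c := by
          rw [mul_smul, smul_smul y y, sq_involution hy2, one_smul]
          conv_lhs => rw [← hc, mul_smul, smul_smul, hxx, one_smul]
        have h2 : 2 ≤ (Finset.univ.filter fun d : Ω => (x * y) • d = d).card := by
          rw [← Finset.card_pair hne]
          refine Finset.card_le_card fun d hd => ?_
          rcases Finset.mem_insert.1 hd with rfl | hd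
          · simp [hc2]
          · rw [Finset.mem_singleton.1 hd]; simp [hc]
        omega
  -- the three sums
  have hmap : ∀ c d : Ω, (I.filter fun y => y • c = d).card = e := by
    intro c d
    rw [he, ← card_involutions_map hZ hab hn c d, Nat.card_eq_fintype_card, Fintype.card_subtype, hI, Finset.filter_filter]
  have h1 : ∑ x ∈ I, ∑ y ∈ I, (Finset.univ.filter fun c : Ω => (x * y) • c = c).card = I.card * (N * e) := by
    refine Finset.sum_const_nat fun x hx => ?_
    simp only [Finset.card_filter]
    rw [Finset.sum_comm]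
    rw [show N * e = ∑ _c : Ω, e by rw [Finset.sum_const, Finset.card_univ, smul_eq_mul]]
    refine Finset.sum_congr rfl fun c _ => ?_
    rw [← Finset.card_filter, ← hmap c (x⁻¹ • c)]
    refine congrArg Finset.card (Finset.filter_congr fun y _ => ?_)
    rw [mul_smul, eq_inv_smul_iff]
  have h3 : ∑ x ∈ I, ∑ y ∈ I, (if ∃ c : Ω, x • c = c ∧ y • c = c then 1 else 0) = I.card * e := by
    refine Finset.sum_const_nat fun x hx => ?_
    obtain ⟨cx, hcx, hcx'⟩ := hfix1 x hx
    rw [← Finset.card_filter, ← hmap cx cx]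
    refine congrArg Finset.card (Finset.filter_congr fun y _ => ⟨fun ⟨c, h, h'⟩ => hcx' c h ▸ h', fun h => ⟨cx, hcx, h⟩⟩)
  have h4 : ∑ x ∈ I, ∑ y ∈ I, (if x = y then N - 1 else 0) = I.card * (N - 1) := by
    refine Finset.sum_const_nat fun x hx => ?_
    rw [Finset.sum_ite_eq, if_pos hx]
  have h2 : ∑ x ∈ I, ∑ y ∈ I, (if Fpf Ω (x * y) then 1 else 0) =
      ∑ g ∈ (Finset.univ : Finset G).filter (IsRealFpf Ω), tor g := by
    rw [← Finset.sum_product']
    rw [← Finset.card_filter]
    rw [Finset.card_eq_sum_card_fiberwise (f := fun p : G × G => p.1 * p.2) (t := (Finset.univ : Finset G).filter (IsRealFpf Ω))]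
    · refine Finset.sum_congr rfl fun g hg => ?_
      have hg' := (Finset.mem_filter.1 hg).2
      rw [← card_inverters hZ hab hn hg', Nat.card_eq_fintype_card, Fintype.card_subtype]
      refine Finset.card_bij' (fun p _ => p.1) (fun x _ => (x, x * g)) ?_ ?_ ?_ ?_
      · rintro ⟨x, y⟩ hp
        simp only [Finset.mem_filter, Finset.mem_product, hI, Finset.mem_univ, true_and] at hp ⊢
        refine ⟨hp.1.1.1, ?_⟩
        rw [← hp.2, mul_inv_rev, inv_eq_of_mul_eq_one_right (sq_involution hp.1.1.1),
          inv_eq_of_mul_eq_one_right (sq_involution hp.1.1.2), ← mul_assoc, sq_involution hp.1.1.1, one_mul]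
      · intro x hx
        simp only [Finset.mem_filter, Finset.mem_product, hI, Finset.mem_univ, true_and] at hx ⊢
        have e1 : x * (x * g) = g := by rw [← mul_assoc, sq_involution hx.1, one_mul]
        refine ⟨⟨⟨hx.1, ?_⟩, by rw [e1]; exact hg'.1⟩, e1⟩
        refine orderOf_eq_prime ?_ fun h => ?_
        · calc (x * g) ^ 2 = (x * g * x⁻¹) * (x * x) * g := by rw [pow_two]; group
            _ = 1 := by rw [hx.2, sq_involution hx.1]; group
        · have hgx : g = x := by rw [eq_inv_of_mul_eq_one_right h, inv_eq_of_mul_eq_one_right (sq_involution hx.1)]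
          have := odd_of_fpf hZ hn hg'.1
          rw [hgx, hx.1] at this
          exact absurd this (by decide)
      · rintro ⟨x, y⟩ hp
        simp only [Finset.mem_filter, Finset.mem_product, hI, Finset.mem_univ, true_and] at hp
        rw [← hp.2, ← mul_assoc, sq_involution hp.1.1.1, one_mul]
      · intro x _; rfl
    · rintro ⟨x, y⟩ hp
      simp only [Finset.mem_filter, Finset.mem_product, hI, Finset.coe_filter, Finset.mem_coe, Finset.mem_univ,
        true_and, Set.mem_ofPred_eq] at hp ⊢
      refine ⟨hp.2, x, hp.1.1, ?_⟩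
      rw [mul_inv_rev, inv_eq_of_mul_eq_one_right (sq_involution hp.1.1),
        inv_eq_of_mul_eq_one_right (sq_involution hp.1.2), ← mul_assoc x x y, sq_involution hp.1.1, one_mul]
  have hs := Finset.sum_congr rfl fun x (hx : x ∈ I) => Finset.sum_congr rfl fun y (hy : y ∈ I) => key x hx y hy
  simp only [Finset.sum_add_distrib, ← Finset.mul_sum, Finset.sum_const, smul_eq_mul] at hs
  rw [h1, h2, h3, h4, hIc] at hs
  have hG : Nat.card G = N * ((N - 1) * e) := card_group hZ hab
  obtain ⟨m, hm⟩ : ∃ m, N = m + 1 := ⟨N - 1, by omega⟩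
  rw [hG]
  rw [hm, Nat.add_sub_cancel] at hs ⊢
  have hs' : (((m + 1) * e * ((m + 1) * e) + 2 * (∑ g ∈ (Finset.univ : Finset G).filter (IsRealFpf Ω), tor g) + (m + 1) * e * e : ℕ) : ℤ) =
      (((m + 1) * e * ((m + 1) * e * 2) + (m + 1) * e * m : ℕ) : ℤ) := by exact_mod_cast hs
  refine Int.natCast_inj.1 ?_
  push_cast at hs' ⊢
  linear_combination hs'

include hZ hab hn in
theorem two_mul_card_real_le :
    2 * Nat.card {g : G // IsRealFpf Ω g} + (Fintype.card Ω - 1) * (Fintype.card Ω - 2) ≤ Nat.card G := by
  rw [← two_mul_card_fpf hZ hab]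
  refine Nat.add_le_add_right (Nat.mul_le_mul_left 2 ?_) _
  exact Nat.card_le_card_of_injective (fun g => (⟨g.1, g.2.1⟩ : {g : G // ∀ c : Ω, g • c ≠ c}))
    fun g h e => Subtype.ext (congrArg (fun z : {g : G // ∀ c : Ω, g • c ≠ c} => z.1) e)

end CfsgLib.ZGrp
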